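import Mathlib
import Cfsg.Prelude.Def_CaseTheorems
import Cfsg.Agent.Lib.Helper89.DSStmt
import Cfsg.Agent.Lib.Helper50.Cores

/-!
# S0508 piece OBASIC: basic facts on the odd core of a subgroup, seen in the ambient group.
-/

set_option autoImplicit false

namespace Cfsg.Agent.Lib.Helper61.DSOBASIC

universe u

theorem main : Cfsg.Agent.Lib.Helper89.DSStmt.OBasic.{u} := by
  intro G _ _ H
  refine ⟨Subgroup.map_subtype_le _, ?_, ?_⟩
  · have hcard : Nat.card ↥((Cfsg.oddCore ↥H).map H.subtype) = Nat.card ↥(Cfsg.oddCore ↥H) :=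
      Subgroup.card_map_of_injective (Subgroup.subtype_injective H)
    rw [hcard]
    have hcop : (Nat.card ↥(Cfsg.oddCore ↥H)).Coprime 2 :=
      Cfsg.Agent.Lib.Helper50.Cores.pPrimeCore_coprime (G := ↥H) 2
    exact Nat.coprime_two_right.1 hcop
  · intro c hc o ho
    obtain ⟨o', ho', rfl⟩ := Subgroup.mem_map.1 ho
    have hn : (Cfsg.oddCore ↥H).Normal := Cfsg.pPrimeCore_normal 2 ↥H
    have h1 : (⟨c, hc⟩ : ↥H) * o' * (⟨c, hc⟩ : ↥H)⁻¹ ∈ Cfsg.oddCore ↥H :=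
      hn.conj_mem o' ho' ⟨c, hc⟩
    exact Subgroup.mem_map.2 ⟨_, h1, by simp⟩

end Cfsg.Agent.Lib.Helper61.DSOBASIC
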