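import Mathlib
import Cfsg.Prelude.Def_CaseTheorems
import Cfsg.Agent.Lib.Helper89.DSStmt
import Cfsg.Agent.Lib.Helper50.Cores

/-!
# S0508 piece OFACT: `H = O(H) S` when `O(H)` has 2-power index and `S ≤ H` is a Sylow 2-subgroup.
-/

set_option autoImplicit false

namespace Cfsg.Agent.Lib.Helper61.DSOFACT

universe u

theorem main : Cfsg.Agent.Lib.Helper89.DSStmt.OFact.{u} := by
  intro G _ _ S H hSH hidx c hc
  obtain ⟨k, hk⟩ := hidx
  have : Fact (Nat.Prime 2) := ⟨Nat.prime_two⟩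
  have hn : (Cfsg.oddCore ↥H).Normal := Cfsg.pPrimeCore_normal 2 ↥H
  have hcop : (Nat.card ↥(Cfsg.oddCore ↥H)).Coprime 2 :=
    Cfsg.Agent.Lib.Helper50.Cores.pPrimeCore_coprime (G := ↥H) 2
  -- the Sylow 2-subgroup of `H`
  set S' : Sylow 2 ↥H := S.subtype hSH with hS'
  have hS'coe : (S' : Subgroup ↥H) = (S : Subgroup G).subgroupOf H := Sylow.coe_subtype S hSH
  have hcardH : Nat.card ↥(Cfsg.oddCore ↥H) * 2 ^ k = Nat.card ↥H := by
    rw [← hk]; exact Subgroup.card_mul_index _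
  have hOpos : Nat.card ↥(Cfsg.oddCore ↥H) ≠ 0 := Nat.card_pos.ne'
  have hfac : (Nat.card ↥H).factorization 2 = k := by
    rw [← hcardH, Nat.factorization_mul hOpos (by positivity)]
    have h0 : (Nat.card ↥(Cfsg.oddCore ↥H)).factorization 2 = 0 := by
      apply Nat.factorization_eq_zero_of_not_dvd
      intro hdvd
      have := Nat.Coprime.eq_one_of_dvd hcop.symm hdvd
      omega
    simp [h0, Nat.Prime.factorization_pow Nat.prime_two]
  have hcardS' : Nat.card ↥(S' : Subgroup ↥H) = 2 ^ k := by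
    rw [Sylow.card_eq_multiplicity, hfac]
  have hcompl : Subgroup.IsComplement' (Cfsg.oddCore ↥H) (S' : Subgroup ↥H) := by
    apply Subgroup.isComplement'_of_coprime
    · rw [hcardS']; exact hcardH
    · rw [hcardS']; exact Nat.Coprime.pow_right k hcop
  have htop : Cfsg.oddCore ↥H ⊔ (S' : Subgroup ↥H) = ⊤ := hcompl.sup_eq_top
  have hmem : (⟨c, hc⟩ : ↥H) ∈ Cfsg.oddCore ↥H ⊔ (S' : Subgroup ↥H) := by
    rw [htop]; exact Subgroup.mem_top _
  rw [← SetLike.mem_coe, Subgroup.normal_mul] at hmem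
  obtain ⟨o, ho, s, hs, hos⟩ := Set.mem_mul.1 hmem
  refine ⟨(o : G), Subgroup.mem_map.2 ⟨o, ho, rfl⟩, (s : G), ?_, ?_⟩
  · have : s ∈ (S : Subgroup G).subgroupOf H := by rw [← hS'coe]; exact hs
    exact Subgroup.mem_subgroupOf.1 this
  · have := congrArg (fun x : ↥H => (x : G)) hos
    simpa using this.symm

end Cfsg.Agent.Lib.Helper61.DSOFACT
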