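import Cfsg.Agent.Lib.Helper61.J2Data
import Cfsg.Agent.Lib.Helper61.PrimSimple

/-!
# The Hall–Janko group on 100 points

`G1 = ⟨a, b⟩ ≤ Sym(100)` (generators in `J2Data.GP`) has order `604800` (verified stabiliser
chain `100 · 63 · 32 · 3`) and is simple: it is primitive on the 100 points with point
stabiliser `G2 ≅ U₃(3)`, which is simple because it is primitive on an orbit of 63 points,
`7 ∥ |G2|` and the normal closure of an element of order 7 is `G2`.
-/

set_option autoImplicit false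

namespace Cfsg.Agent.Lib.Helper61.J2Main

open Cfsg.Agent.Lib.Helper61.PermCert Cfsg.Agent.Lib.Helper61.J2Data Cfsg.Agent.Lib.Helper61
open MulAction

set_option maxRecDepth 100000 in
theorem gok_GP : gok GP = true := by decide +kernel

set_option maxRecDepth 100000 in
theorem ok4 : lvl4.ok GP = true := by decide +kernel

set_option maxRecDepth 100000 in
theorem ok3 : lvl3.ok GP = true := by decide +kernel

set_option maxRecDepth 100000 in
theorem ok2 : lvl2.ok GP = true := by decide +kernel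

set_option maxRecDepth 100000 in
theorem ok1 : lvl1.ok GP = true := by decide +kernel

set_option maxRecDepth 100000 in
theorem prim1 : primOK U1 100 E1 104 0 full1 PC1 = true := by decide +kernel

set_option maxRecDepth 100000 in
theorem prim2 : primOK U2 63 E2 67 37 full2 PC2 = true := by decide +kernel

set_option maxRecDepth 100000 in
theorem eok1 : eOK GP U1 100 E1 104 [4, 5, 6, 7] = true := by decide +kernel

set_option maxRecDepth 100000 in
theorem eok2 : eOK GP U2 63 E2 67 [8, 9, 10, 11] = true := by decide +kernel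

/-- the transversal entry number `t` of level 1 maps the point `0` to `t` -/
theorem trans1 : (allP fun t => Nat.beq (ap (ent U1 t) 0) t) = true := by decide +kernel

/-- `x7 ^ 7 = 1` -/
theorem x7_pow : (allP fun p => Nat.beq (actW GP [4, 4, 4, 4, 4, 4, 4] p) (actW GP [] p)) = true := by
  decide +kernel

/-- `y7 * c = c * x7` -/
theorem conj_chk : (allP fun p => Nat.beq (actW GP (6 :: wc) p) (actW GP (wc ++ [4]) p)) = true := by
  decide +kernel

theorem x7_ne : ap (lp GP 4) 1 ≠ 1 := by decide +kernel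

theorem orb38 : ap (ent U2 1) 37 = 38 := by decide +kernel

theorem orb46 : ap (ent U2 9) 37 = 46 := by decide +kernel

abbrev G1 : Subgroup Pm := Hg GP [0, 1, 2, 3]
abbrev G2 : Subgroup Pm := Hg GP [4, 5, 6, 7]
abbrev G3 : Subgroup Pm := Hg GP [8, 9, 10, 11]
abbrev G4 : Subgroup Pm := Hg GP [12, 13]
abbrev G5 : Subgroup Pm := Hg GP []

theorem real4 : ∀ j < 3, Real G4 (ent U4 j) := lvl4.real gok_GP ok4
theorem real3 : ∀ j < 32, Real G3 (ent U3 j) := lvl3.real gok_GP ok3
theorem real2 : ∀ j < 63, Real G2 (ent U2 j) := lvl2.real gok_GP ok2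
theorem real1 : ∀ j < 100, Real G1 (ent U1 j) := lvl1.real gok_GP ok1

theorem le54 : G5 ≤ G4 := lvl4.le gok_GP ok4
theorem le43 : G4 ≤ G3 := lvl3.le gok_GP ok3
theorem le32 : G3 ≤ G2 := lvl2.le gok_GP ok2
theorem le21 : G2 ≤ G1 := lvl1.le gok_GP ok1

theorem hD4 : ∀ T ∈ lvl4.D, ∀ k < T.2, Real G5 (ent T.1 k) := by
  intro T hT
  simp [lvl4] at hT

theorem hD3 : ∀ T ∈ lvl3.D, ∀ k < T.2, Real G4 (ent T.1 k) := by
  intro T hT k hk
  simp only [lvl3, List.mem_cons, List.not_mem_nil, or_false] at hT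
  subst hT
  exact real4 k hk

theorem hD2 : ∀ T ∈ lvl2.D, ∀ k < T.2, Real G3 (ent T.1 k) := by
  intro T hT k hk
  simp only [lvl2, List.mem_cons, List.not_mem_nil, or_false] at hT
  rcases hT with rfl | rfl
  · exact real3 k hk
  · exact (real4 k hk).mono le43

theorem hD1 : ∀ T ∈ lvl1.D, ∀ k < T.2, Real G2 (ent T.1 k) := by
  intro T hT k hk
  simp only [lvl1, List.mem_cons, List.not_mem_nil, or_false] at hT
  rcases hT with rfl | rfl | rfl
  · exact real2 k hk
  · exact (real3 k hk).mono le32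
  · exact (real4 k hk).mono (le43.trans le32)

theorem card5 : Nat.card G5 = 1 := by
  have : G5 = ⊥ := Hg_nil
  rw [this, Subgroup.card_bot]

theorem card4 : Nat.card G4 = 3 := by
  have := lvl4.card gok_GP ok4 hD4
  rw [show Nat.card (Hg GP lvl4.A') = 1 from card5] at this
  exact this

theorem card3 : Nat.card G3 = 96 := by
  have := lvl3.card gok_GP ok3 hD3
  rw [show Nat.card (Hg GP lvl3.A') = 3 from card4] at this
  exact this

theorem card2 : Nat.card G2 = 6048 := by
  have := lvl2.card gok_GP ok2 hD2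
  rw [show Nat.card (Hg GP lvl2.A') = 96 from card3] at this
  exact this

theorem card1 : Nat.card G1 = 604800 := by
  have := lvl1.card gok_GP ok1 hD1
  rw [show Nat.card (Hg GP lvl1.A') = 6048 from card2] at this
  exact this

/-! ### Simplicity of `G2` -/

theorem nontrivial2 : Nontrivial ↥G2 :=
  Finite.one_lt_card_iff_nontrivial.1 (by rw [card2]; norm_num)

theorem faith2 : ∀ h : ↥G2, (∀ x ∈ orbit ↥G2 (pt 37), h • x = x) → h = 1 := by
  intro h hfix
  have h37 : (h : Pm) (pt 37) = pt 37 := hfix _ (mem_orbit_self _)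
  have m3 : (h : Pm) ∈ G3 := lvl2.stab gok_GP ok2 hD2 h.1 h.2 h37
  have hmem : ∀ j < 63, pt (ap (ent U2 j) 37) ∈ orbit ↥G2 (pt 37) := by
    intro j hj
    obtain ⟨g, hg, hgp⟩ := real2 j hj
    refine ⟨⟨g, hg⟩, ?_⟩
    apply Fin.ext
    show ((g (pt 37) : Fin 100) : ℕ) = _
    rw [hgp, pt_val (ap_lt _ _)]
    rfl
  have h38 : (h : Pm) (pt 38) = pt 38 := by
    have := hmem 1 (by norm_num)
    rw [orb38] at this
    exact hfix _ this
  have m4 : (h : Pm) ∈ G4 := lvl3.stab gok_GP ok3 hD3 h.1 m3 h38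
  have h46 : (h : Pm) (pt 46) = pt 46 := by
    have := hmem 9 (by norm_num)
    rw [orb46] at this
    exact hfix _ this
  have m5 : (h : Pm) ∈ G5 := lvl4.stab gok_GP ok4 hD4 h.1 m4 h46
  have : G5 = ⊥ := Hg_nil
  rw [this, Subgroup.mem_bot] at m5
  exact Subtype.ext m5

theorem hE2 : ∀ e < 67, Real G2 (ent E2 e) :=
  real_E gok_GP eok2 real2 (fun _ ha => le32 (gp_mem ha))

theorem hE1 : ∀ e < 104, Real G1 (ent E1 e) :=
  real_E gok_GP eok1 real1 (fun _ ha => le21 (gp_mem ha))

/-- the element of order 7 -/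
noncomputable def x7 : ↥G2 := ⟨gp GP 4, gp_mem (by simp)⟩

theorem x7_order : orderOf x7 = 7 := by
  have : Fact (Nat.Prime 7) := ⟨by norm_num⟩
  apply orderOf_eq_prime
  · apply Subtype.ext
    rw [Subgroup.coe_pow]
    show gp GP 4 ^ 7 = 1
    rw [← evalW_replicate]
    exact evalW_eq_of gok_GP x7_pow
  · intro h
    have h1 : gp GP 4 = 1 := congrArg Subtype.val h
    have h2 := gp_apply gok_GP 4 (pt 1)
    rw [h1, Equiv.Perm.one_apply, pt_val (by norm_num)] at h2
    exact x7_ne h2.symm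

theorem nc2 : Subgroup.normalClosure {x7} = (⊤ : Subgroup ↥G2) := by
  set N : Subgroup ↥G2 := Subgroup.normalClosure {x7} with hN
  have hNn : N.Normal := Subgroup.normalClosure_normal
  have hx : x7 ∈ N := Subgroup.subset_normalClosure (Set.mem_singleton _)
  have key : G2 ≤ N.map G2.subtype := by
    show Hg GP [4, 5, 6, 7] ≤ _
    unfold Hg
    rw [Subgroup.closure_le]
    rintro g ⟨a, ha, rfl⟩
    have h4 : gp GP 4 ∈ N.map G2.subtype := ⟨x7, hx, rfl⟩
    have h5 : gp GP 5 ∈ N.map G2.subtype := by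
      have : gp GP 5 = (gp GP 4)⁻¹ := gp_xor gok_GP (a := 4) (by decide)
      rw [this]
      exact inv_mem h4
    have h6 : gp GP 6 ∈ N.map G2.subtype := by
      have hc : evalW GP wc ∈ G2 := evalW_mem _ (by decide)
      have e1 : gp GP 6 * evalW GP wc = evalW GP wc * gp GP 4 := by
        have := evalW_eq_of gok_GP conj_chk
        rw [evalW_cons, evalW_append] at this
        rw [this]
        congr 1
      have e2 : gp GP 6 = evalW GP wc * gp GP 4 * (evalW GP wc)⁻¹ := by
        rw [← e1, mul_inv_cancel_right]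
      refine ⟨⟨evalW GP wc, hc⟩ * x7 * ⟨evalW GP wc, hc⟩⁻¹, hNn.conj_mem _ hx _, ?_⟩
      rw [e2]
      rfl
    have h7 : gp GP 7 ∈ N.map G2.subtype := by
      have : gp GP 7 = (gp GP 6)⁻¹ := gp_xor gok_GP (a := 6) (by decide)
      rw [this]
      exact inv_mem h6
    simp only [List.mem_cons, List.not_mem_nil, or_false] at ha
    rcases ha with rfl | rfl | rfl | rfl
    · exact h4
    · exact h5
    · exact h6
    · exact h7
  rw [eq_top_iff]
  intro h _
  obtain ⟨n, hn, hnh⟩ := key h.2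
  have : n = h := Subtype.ext hnh
  rw [← this]
  exact hn

theorem simple2 : IsSimpleGroup ↥G2 := by
  have := nontrivial2
  have : Fact (Nat.Prime 7) := ⟨by norm_num⟩
  refine PrimSimple.simple_of_prim_sylow (pt 37) faith2
    (lvl2.prim gok_GP ok2 hD2 hE2 prim2) 7 ?_ ?_ x7 x7_order nc2
  · have := lvl2.ncard_orbit gok_GP ok2 hD2
    show 7 ∣ (orbit ↥(Hg GP lvl2.A) (pt lvl2.b)).ncard
    rw [this]
    decide
  · rw [card2]
    norm_num

/-! ### Simplicity of `G1` -/

theorem trans1' : ∀ x : Fin 100, ∃ g : ↥G1, g • pt 0 = x := by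
  intro x
  obtain ⟨g, hg, hgp⟩ := real1 x x.2
  refine ⟨⟨g, hg⟩, ?_⟩
  apply Fin.ext
  show ((g (pt 0) : Fin 100) : ℕ) = x
  rw [hgp, pt_val (by norm_num)]
  exact Nat.eq_of_beq_eq_true ((allP_iff _).1 trans1 x x.2)

theorem simple1 : IsSimpleGroup ↥G1 := by
  have horb : orbit ↥G1 (pt 0) = Set.univ := by
    ext x
    simp only [Set.mem_univ, iff_true]
    obtain ⟨g, hg⟩ := trans1' x
    exact ⟨g, hg⟩
  refine PrimSimple.simple_of_prim_simple_stab (pt 0) (by simp) trans1' ?_ ?_ ?_
  · intro h hfix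
    apply Subtype.ext
    ext x
    exact congrArg Fin.val (hfix x)
  · have hst := lvl1.stab_eq gok_GP ok1 hD1
    have e : (G2.subgroupOf G1) ≃* G2 := Subgroup.subgroupOfEquivOfLe le21
    have hs : IsSimpleGroup ↥(G2.subgroupOf G1) := e.isSimpleGroup_congr.2 simple2
    show IsSimpleGroup ↥(stabilizer ↥(Hg GP lvl1.A) (pt lvl1.b))
    rw [hst]
    exact hs
  · intro B h1 h3
    have := lvl1.prim gok_GP ok1 hD1 hE1 prim1 B h1 (by
      show B ⊆ orbit ↥G1 (pt 0)
      rw [horb]
      exact Set.subset_univ _) h3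
    rcases this with h | h
    · exact Or.inl h
    · right
      rw [h]
      exact horb

/-- The Hall–Janko group: a simple group of order 604800 on 100 points. -/
theorem j2_main : IsSimpleGroup ↥G1 ∧ Nat.card ↥G1 = 604800 := ⟨simple1, card1⟩

end Cfsg.Agent.Lib.Helper61.J2Main
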