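import Mathlib
import Cfsg.Agent.Lib.Helper18.ReeMultStmt

/-!
# S2113 piece P2FORM: an invariant alternating form on an elementary abelian group of order 8
with a fixed-point-free element of order 7 is trivial.
-/

set_option autoImplicit false

namespace Cfsg.Agent.Lib.Helper61.ReeMultP2FORM

open Cfsg.Agent.Lib.Helper18.ReeMultStmt

universe u w

theorem lemA {M : Type w} [CommGroup M] (f : ℕ → M) (h0 : f 0 = 1)
    (hper : ∀ d, f (d + 7) = f d) (hsym : ∀ d, d ≤ 7 → f (7 - d) = f d)
    (hsq : ∀ d, f d * f d = 1) (k : ℕ) (hk : k < 7)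
    (hrel : ∀ j, f (j + 7 - k) = f j * f (j + 6)) : ∀ d, f d = 1 := by
  have h4 : f 4 = f 3 := hsym 3 (by norm_num)
  have h5 : f 5 = f 2 := hsym 2 (by norm_num)
  have h6 : f 6 = f 1 := hsym 1 (by norm_num)
  have h7 : f 7 = 1 := by rw [← h0]; exact hper 0
  have h8 : f 8 = f 1 := hper 1
  have h9 : f 9 = f 2 := hper 2
  have h10 : f 10 = f 3 := hper 3
  have h11 : f 11 = f 3 := (hper 4).trans h4
  have a2 := hsq 1
  have c2 := hsq 3
  have key : f 1 = 1 ∧ f 2 = 1 ∧ f 3 = 1 := by
    interval_cases k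
    · -- k = 0
      have e0 : f 7 = f 0 * f 6 := hrel 0
      have e3 : f 10 = f 3 * f 9 := hrel 3
      have e4 : f 11 = f 4 * f 10 := hrel 4
      rw [h7, h0, h6, one_mul] at e0
      rw [h10, h9] at e3
      rw [h11, h4, h10, c2] at e4
      exact ⟨e0.symm, left_eq_mul.mp e3, e4⟩
    · -- k = 1
      have e1 : f 7 = f 1 * f 7 := hrel 1
      have e2 : f 8 = f 2 * f 8 := hrel 2
      have e3 : f 9 = f 3 * f 9 := hrel 3
      exact ⟨right_eq_mul.mp e1, right_eq_mul.mp e2, right_eq_mul.mp e3⟩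
    · -- k = 2
      have e0 : f 5 = f 0 * f 6 := hrel 0
      have e3 : f 8 = f 3 * f 9 := hrel 3
      have e4 : f 9 = f 4 * f 10 := hrel 4
      rw [h5, h0, h6, one_mul] at e0
      rw [h8, h9] at e3
      rw [h9, h4, h10, c2] at e4
      have ha : f 1 = 1 := by rw [← e0]; exact e4
      rw [ha, e4, mul_one] at e3
      exact ⟨ha, e4, e3.symm⟩
    · -- k = 3
      have e0 : f 4 = f 0 * f 6 := hrel 0
      have e1 : f 5 = f 1 * f 7 := hrel 1
      have e2 : f 6 = f 2 * f 8 := hrel 2
      rw [h4, h0, h6, one_mul] at e0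
      rw [h5, h7, mul_one] at e1
      rw [h6, h8] at e2
      have hb : f 2 = 1 := right_eq_mul.mp e2
      have ha : f 1 = 1 := by rw [← e1]; exact hb
      exact ⟨ha, hb, by rw [e0]; exact ha⟩
    · -- k = 4
      have e0 : f 3 = f 0 * f 6 := hrel 0
      have e2 : f 5 = f 2 * f 8 := hrel 2
      have e3 : f 6 = f 3 * f 9 := hrel 3
      rw [h0, h6, one_mul] at e0
      rw [h5, h8] at e2
      rw [h6, h9] at e3
      have ha : f 1 = 1 := left_eq_mul.mp e2
      have hc : f 3 = 1 := by rw [e0]; exact ha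
      rw [ha, hc, one_mul] at e3
      exact ⟨ha, e3.symm, hc⟩
    · -- k = 5
      have e0 : f 2 = f 0 * f 6 := hrel 0
      have e1 : f 3 = f 1 * f 7 := hrel 1
      have e2 : f 4 = f 2 * f 8 := hrel 2
      rw [h0, h6, one_mul] at e0
      rw [h7, mul_one] at e1
      rw [h4, h8, e0, a2] at e2
      have ha : f 1 = 1 := by rw [← e1]; exact e2
      exact ⟨ha, by rw [e0]; exact ha, e2⟩
    · -- k = 6
      have e1 : f 2 = f 1 * f 7 := hrel 1
      have e2 : f 3 = f 2 * f 8 := hrel 2
      have e3 : f 4 = f 3 * f 9 := hrel 3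
      rw [h7, mul_one] at e1
      rw [h8, e1, a2] at e2
      rw [h4, h9] at e3
      have hb : f 2 = 1 := left_eq_mul.mp e3
      exact ⟨by rw [← e1]; exact hb, hb, e2⟩
  obtain ⟨k1, k2, k3⟩ := key
  have hsmall : ∀ d, d < 7 → f d = 1 := by
    intro d hd
    interval_cases d
    · exact h0
    · exact k1
    · exact k2
    · exact k3
    · rw [h4]; exact k3
    · rw [h5]; exact k2
    · rw [h6]; exact k1
  intro d
  induction d using Nat.strong_induction_on with
  | _ d ih =>
    by_cases hd : d < 7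
    · exact hsmall d hd
    · have hd' : d = (d - 7) + 7 := by omega
      rw [hd', hper]
      exact ih _ (by omega)

theorem main : P2FORM.{u, w} := by
  intro G _ S M _ B n hcard hexp hn7 hnS hfix hBl hBr hBalt hBinv
  -- basic facts
  have hB1l : ∀ y ∈ S, B 1 y = 1 := by
    intro y hy
    have h := hBl 1 S.one_mem 1 S.one_mem y hy
    rw [one_mul] at h
    exact left_eq_mul.mp h
  have hB1r : ∀ x ∈ S, B x 1 = 1 := by
    intro x hx
    have h := hBr x hx 1 S.one_mem 1 S.one_mem
    rw [one_mul] at h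
    exact left_eq_mul.mp h
  have hsq : ∀ x ∈ S, ∀ y ∈ S, B x y * B x y = 1 := by
    intro x hx y hy
    rw [← hBl x hx x hx y hy, hexp x hx]
    exact hB1l y hy
  have hsymm : ∀ x ∈ S, ∀ y ∈ S, B y x = B x y := by
    intro x hx y hy
    have hxy : x * y ∈ S := S.mul_mem hx hy
    have h1 := hBalt (x * y) hxy
    rw [hBl x hx y hy (x * y) hxy, hBr x hx x hx y hy, hBr y hy x hx y hy, hBalt x hx,
      hBalt y hy, one_mul, mul_one] at h1
    have h2 := hsq x hx y hy
    exact mul_left_cancel (h1.trans h2.symm)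
  -- the automorphism
  have hτ7 : (MulAut.conj n) ^ 7 = 1 := by rw [← map_pow, hn7, map_one]
  have hτS : ∀ d : ℕ, ∀ y ∈ S, ((MulAut.conj n) ^ d) y ∈ S := by
    intro d
    induction d with
    | zero => intro y hy; simpa using hy
    | succ d ih =>
      intro y hy
      rw [pow_succ, MulAut.mul_apply]
      exact ih _ (hnS y hy)
  have hτB : ∀ d : ℕ, ∀ y ∈ S, ∀ y' ∈ S,
      B (((MulAut.conj n) ^ d) y) (((MulAut.conj n) ^ d) y') = B y y' := by
    intro d
    induction d with
    | zero => intro y hy y' hy'; simp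
    | succ d ih =>
      intro y hy y' hy'
      rw [pow_succ, MulAut.mul_apply, MulAut.mul_apply]
      exact (ih ((MulAut.conj n) y) (hnS y hy) ((MulAut.conj n) y') (hnS y' hy')).trans
        (hBinv y hy y' hy')
  have hτadd : ∀ (i j : ℕ) (y : G),
      ((MulAut.conj n) ^ i) (((MulAut.conj n) ^ j) y) = ((MulAut.conj n) ^ (i + j)) y := by
    intro i j y
    rw [pow_add, MulAut.mul_apply]
  have hτ7y : ∀ y : G, ((MulAut.conj n) ^ 7) y = y := by
    intro y; rw [hτ7]; rfl
  have hfixpow : ∀ (e : ℕ), 0 < e → e < 7 → ∀ x ∈ S, ((MulAut.conj n) ^ e) x = x → x = 1 := by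
    intro e he0 he7 x hx hex
    apply hfix x hx
    have h1 : n ^ e * x = x * n ^ e := by
      have h2 : (MulAut.conj (n ^ e)) x = x := by rw [map_pow]; exact hex
      rw [MulAut.conj_apply] at h2
      exact mul_inv_eq_iff_eq_mul.mp h2
    obtain ⟨a, ha⟩ : ∃ a : ℕ, e * a % 7 = 1 := by
      interval_cases e
      · exact ⟨1, rfl⟩
      · exact ⟨4, rfl⟩
      · exact ⟨5, rfl⟩
      · exact ⟨2, rfl⟩
      · exact ⟨3, rfl⟩
      · exact ⟨6, rfl⟩
    have h3 : n ^ (e * a) = n := by
      rw [pow_eq_pow_mod (e * a) hn7, ha, pow_one]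
    have h4 : Commute (n ^ e) x := h1
    have h5 : Commute ((n ^ e) ^ a) x := h4.pow_left a
    rw [← pow_mul, h3] at h5
    exact h5.eq
  intro x hx y hy
  by_cases hx1 : x = 1
  · rw [hx1]; exact hB1l y hy
  -- the orbit of x
  have hne1 : ∀ d : ℕ, ((MulAut.conj n) ^ d) x ≠ 1 := by
    intro d h
    apply hx1
    have h' : ((MulAut.conj n) ^ d) x = ((MulAut.conj n) ^ d) 1 := by rw [h, map_one]
    exact ((MulAut.conj n) ^ d).injective h'
  have hinj : ∀ i j : ℕ, i < 7 → j < 7 →
      ((MulAut.conj n) ^ i) x = ((MulAut.conj n) ^ j) x → i = j := by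
    have key : ∀ i j : ℕ, i < j → j < 7 →
        ((MulAut.conj n) ^ i) x ≠ ((MulAut.conj n) ^ j) x := by
      intro i j hij hj h
      have hj' : j = i + (j - i) := by omega
      rw [hj', ← hτadd] at h
      have h2 : ((MulAut.conj n) ^ (j - i)) x = x := (((MulAut.conj n) ^ i).injective h).symm
      exact hx1 (hfixpow (j - i) (by omega) (by omega) x hx h2)
    intro i j hi hj h
    rcases Nat.lt_trichotomy i j with hlt | heq | hgt
    · exact absurd h (key i j hlt hj)
    · exact heq
    · exact absurd h.symm (key j i hgt hi)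
  let ψ : Option (Fin 7) → S := fun o => match o with
    | none => 1
    | some d => ⟨((MulAut.conj n) ^ (d : ℕ)) x, hτS d x hx⟩
  have hψinj : Function.Injective ψ := by
    intro o o' h
    rcases o with _ | d <;> rcases o' with _ | d'
    · rfl
    · exact absurd (congrArg Subtype.val h).symm (hne1 d')
    · exact absurd (congrArg Subtype.val h) (hne1 d)
    · have h' := hinj d d' d.2 d'.2 (congrArg Subtype.val h)
      rw [Fin.ext h']
  have hfin : Finite S := Nat.finite_of_card_ne_zero (by rw [hcard]; norm_num)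
  have hψbij : Function.Bijective ψ := hψinj.bijective_of_nat_card_le (by
    rw [hcard, Nat.card_eq_fintype_card, Fintype.card_option, Fintype.card_fin])
  have hcover : ∀ y ∈ S, y = 1 ∨ ∃ d, d < 7 ∧ y = ((MulAut.conj n) ^ d) x := by
    intro y hy
    obtain ⟨o, ho⟩ := hψbij.2 ⟨y, hy⟩
    rcases o with _ | d
    · left; exact (congrArg Subtype.val ho).symm
    · right; exact ⟨d, d.2, (congrArg Subtype.val ho).symm⟩
  -- the function `f d = B x (τ^d x)`
  have h0 : B x (((MulAut.conj n) ^ 0) x) = 1 := by rw [pow_zero]; exact hBalt x hx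
  have hper : ∀ d, B x (((MulAut.conj n) ^ (d + 7)) x) = B x (((MulAut.conj n) ^ d) x) := by
    intro d; rw [← hτadd, hτ7y]
  have hsym' : ∀ d, d ≤ 7 →
      B x (((MulAut.conj n) ^ (7 - d)) x) = B x (((MulAut.conj n) ^ d) x) := by
    intro d hd
    have e1 := hτB d x hx _ (hτS (7 - d) x hx)
    rw [hτadd, show d + (7 - d) = 7 by omega, hτ7y] at e1
    rw [← e1]
    exact hsymm x hx _ (hτS d x hx)
  have hsq' : ∀ d, B x (((MulAut.conj n) ^ d) x) * B x (((MulAut.conj n) ^ d) x) = 1 :=
    fun d => hsq x hx _ (hτS d x hx)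
  have hτxS : (MulAut.conj n) x ∈ S := hnS x hx
  have hxτ : x * (MulAut.conj n) x ∈ S := S.mul_mem hx hτxS
  have hk : ∃ k, k < 7 ∧ x * (MulAut.conj n) x = ((MulAut.conj n) ^ k) x := by
    rcases hcover _ hxτ with h | h
    · exfalso
      have h2 : (MulAut.conj n) x = x := by
        have h3 : x * (MulAut.conj n) x = x * x := by rw [h, hexp x hx]
        exact mul_left_cancel h3
      exact hx1 (hfixpow 1 (by norm_num) (by norm_num) x hx (by rw [pow_one]; exact h2))
    · exact h
  obtain ⟨k, hk, hkx⟩ := hk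
  have hrel : ∀ j, B x (((MulAut.conj n) ^ (j + 7 - k)) x) =
      B x (((MulAut.conj n) ^ j) x) * B x (((MulAut.conj n) ^ (j + 6)) x) := by
    intro j
    have hjS := hτS j x hx
    have e1 := hBl x hx ((MulAut.conj n) x) hτxS _ hjS
    rw [hkx] at e1
    have e2 := hτB (7 - k) _ (hτS k x hx) _ hjS
    rw [hτadd, hτadd, show 7 - k + k = 7 by omega, hτ7y,
      show 7 - k + j = j + 7 - k by omega] at e2
    have e3 := hτB 6 _ hτxS _ hjS
    have e4 : ((MulAut.conj n) ^ 6) ((MulAut.conj n) x) = x := by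
      have h := hτadd 6 1 x
      rw [pow_one] at h
      rw [h]; exact hτ7y x
    rw [e4, hτadd, show 6 + j = j + 6 by omega] at e3
    rw [e2, e3]; exact e1
  have hall := lemA (fun d => B x (((MulAut.conj n) ^ d) x)) h0 hper hsym' hsq' k hk hrel
  rcases hcover y hy with h | ⟨d, -, h⟩
  · rw [h]; exact hB1r x hx
  · rw [h]; exact hall d

end Cfsg.Agent.Lib.Helper61.ReeMultP2FORM
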