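import Mathlib

set_option autoImplicit false

/-! Fast kernel arithmetic for vectors of `F_2^28`, packed bitwise into one natural number, and
matrices given by byte-sliced lookup tables acting on them; with soundness. -/

namespace Cfsg.Agent.Lib.Helper61.RuFast

abbrev Idx : Type := Fin 28

/-- the vector coded by `c`: coordinate `k` is bit `k` of `c`. -/
def vecOf (c : ℕ) : Idx → ZMod 2 := fun k => if c.testBit k.val then 1 else 0

theorem vecOf_apply (c : ℕ) (k : Idx) : vecOf c k = if c.testBit k.val then 1 else 0 := rfl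

theorem vecOf_zero : vecOf 0 = 0 := by
  funext k
  simp [vecOf]

theorem vecOf_xor (a b : ℕ) : vecOf (a ^^^ b) = vecOf a + vecOf b := by
  funext k
  simp only [vecOf, Nat.testBit_xor, Pi.add_apply]
  cases a.testBit k.val <;> cases b.testBit k.val <;> decide

/-- injectivity of the coding below `2^28`. -/
theorem vecOf_inj {c c' : ℕ} (h : vecOf c = vecOf c') : c % 2 ^ 28 = c' % 2 ^ 28 := by
  apply Nat.eq_of_testBit_eq
  intro i
  rw [Nat.testBit_mod_two_pow, Nat.testBit_mod_two_pow]
  by_cases hi : i < 28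
  · have := congrFun h ⟨i, hi⟩
    rw [vecOf_apply, vecOf_apply] at this
    have h2 : c.testBit i = c'.testBit i := by
      cases hc : c.testBit i <;> cases hc' : c'.testBit i <;> simp_all
    rw [h2]
  · simp [hi]

theorem vecOf_inj_lt {c c' : ℕ} (hc : c < 2 ^ 28) (hc' : c' < 2 ^ 28) (h : vecOf c = vecOf c') :
    c = c' := by
  have := vecOf_inj h
  rwa [Nat.mod_eq_of_lt hc, Nat.mod_eq_of_lt hc'] at this

/-- xor of `f 0, …, f (n-1)`. -/
def xs (f : ℕ → ℕ) : ℕ → ℕ
  | 0 => 0
  | n + 1 => xs f n ^^^ f n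

theorem vecOf_xs (f : ℕ → ℕ) (n : ℕ) : vecOf (xs f n) = ∑ j ∈ Finset.range n, vecOf (f j) := by
  induction n with
  | zero => simp [xs, vecOf_zero]
  | succ n ih => rw [xs, vecOf_xor, ih, Finset.sum_range_succ]

/-- a matrix as four byte-sliced lookup tables: entry `b` of slice `k` (28 bits) is the sum of
the columns `8k + i` over the bits `i` of `b`. -/
structure Tab where
  a0 : ℕ
  a1 : ℕ
  a2 : ℕ
  a3 : ℕ

def Tab.sl (t : Tab) (k : ℕ) : ℕ :=
  match k with
  | 0 => t.a0
  | 1 => t.a1
  | 2 => t.a2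
  | 3 => t.a3
  | _ => 0

/-- entry `i` of a table of 28-bit entries. -/
def lk (T i : ℕ) : ℕ := Nat.land (Nat.shiftRight T (Nat.mul 28 i)) 268435455

theorem lk_lt (T i : ℕ) : lk T i < 2 ^ 28 := by
  have : lk T i = (T >>> (28 * i)) &&& (2 ^ 28 - 1) := rfl
  rw [this, Nat.and_two_pow_sub_one_eq_mod]
  exact Nat.mod_lt _ (by norm_num)

/-- the table matrix times the coded vector `v` (for `v < 2^28`). -/
def fmv (t : Tab) (v : ℕ) : ℕ :=
  Nat.xor (Nat.xor (Nat.xor (Nat.xor 0
    (lk t.a0 (Nat.land (Nat.shiftRight v 0) 255)))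
    (lk t.a1 (Nat.land (Nat.shiftRight v 8) 255)))
    (lk t.a2 (Nat.land (Nat.shiftRight v 16) 255)))
    (lk t.a3 (Nat.land (Nat.shiftRight v 24) 255))

theorem fmv_eq (t : Tab) (v : ℕ) :
    fmv t v = xs (fun k => lk (t.sl k) ((v >>> (8 * k)) &&& 255)) 4 := rfl

theorem xs_lt (f : ℕ → ℕ) (hf : ∀ k, f k < 2 ^ 28) (n : ℕ) : xs f n < 2 ^ 28 := by
  induction n with
  | zero => simp [xs]
  | succ n ih => exact Nat.xor_lt_two_pow ih (hf n)

theorem fmv_lt (t : Tab) (v : ℕ) : fmv t v < 2 ^ 28 := by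
  rw [fmv_eq]
  exact xs_lt _ (fun k => lk_lt _ _) 4

/-- the sum of the single-bit entries of a slice over the bits of `b`. -/
def sel (T b : ℕ) : ℕ := xs (fun i => cond (b.testBit i) (lk T (2 ^ i)) 0) 8

/-- bounded universal quantifier. -/
noncomputable def allB (n : ℕ) (f : ℕ → Bool) : Bool :=
  @Nat.rec (fun _ => Bool) true (fun j acc => f j && acc) n

theorem allB_iff (n : ℕ) (f : ℕ → Bool) : allB n f = true ↔ ∀ j < n, f j = true := by
  induction n with
  | zero => simp [allB]
  | succ n ih =>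
    show (f n && allB n f) = true ↔ _
    rw [Bool.and_eq_true, ih]
    constructor
    · rintro ⟨h1, h2⟩ j hj
      rcases Nat.lt_succ_iff_lt_or_eq.mp hj with h | rfl
      · exact h2 j h
      · exact h1
    · intro h
      exact ⟨h n (Nat.lt_succ_self n), fun j hj => h j (Nat.lt_succ_of_lt hj)⟩

theorem beq_iff (a b : ℕ) : Nat.beq a b = true ↔ a = b :=
  ⟨Nat.eq_of_beq_eq_true, fun h => h ▸ Nat.beq_refl a⟩

/-- the table is consistent: every entry is the sum of the single-bit entries of its index. -/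
noncomputable def tabOK (t : Tab) : Bool :=
  allB 4 (fun k => allB 256 (fun b => Nat.beq (lk (t.sl k) b) (sel (t.sl k) b)))

/-- column `j` of the table matrix. -/
def col (t : Tab) (j : ℕ) : ℕ := lk (t.sl (j / 8)) (2 ^ (j % 8))

/-- the matrix of a table. -/
def MatT (t : Tab) : Matrix Idx Idx (ZMod 2) :=
  Matrix.of fun i j => if (col t j.val).testBit i.val then 1 else 0

theorem vecOf_cond (c : Bool) (x : ℕ) : vecOf (cond c x 0) = if c then vecOf x else 0 := by
  cases c
  · simp [vecOf_zero]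
  · simp

theorem byte_testBit (v k i : ℕ) (hi : i < 8) :
    ((v >>> (8 * k)) &&& 255).testBit i = v.testBit (8 * k + i) := by
  have h255 : (255 : ℕ) = 2 ^ 8 - 1 := by norm_num
  rw [h255, Nat.and_two_pow_sub_one_eq_mod, Nat.testBit_mod_two_pow, Nat.testBit_shiftRight]
  simp [hi]

theorem byte_lt (v k : ℕ) : (v >>> (8 * k)) &&& 255 < 256 := by
  have h255 : (255 : ℕ) = 2 ^ 8 - 1 := by norm_num
  rw [h255, Nat.and_two_pow_sub_one_eq_mod]
  exact Nat.mod_lt _ (by norm_num)

theorem sum_blocks {M : Type*} [AddCommMonoid M] (g : ℕ → M) (K : ℕ) :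
    ∑ k ∈ Finset.range K, ∑ i ∈ Finset.range 8, g (8 * k + i) = ∑ j ∈ Finset.range (8 * K), g j := by
  induction K with
  | zero => simp
  | succ K ih =>
    rw [Finset.sum_range_succ, ih, Nat.mul_succ, Finset.sum_range_add]

/-- soundness of the fast product. -/
theorem fmv_sound (t : Tab) (ht : tabOK t = true) (v : ℕ) (hv : v < 2 ^ 28) :
    vecOf (fmv t v) = (MatT t).mulVec (vecOf v) := by
  unfold tabOK at ht
  rw [allB_iff] at ht
  have hsel : ∀ k < 4, lk (t.sl k) ((v >>> (8 * k)) &&& 255) = sel (t.sl k) ((v >>> (8 * k)) &&& 255) := by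
    intro k hk
    have h1 := ht k hk
    rw [allB_iff] at h1
    exact (beq_iff _ _).1 (h1 _ (byte_lt v k))
  let g : ℕ → (Idx → ZMod 2) := fun j => if v.testBit j then vecOf (col t j) else 0
  have hL : vecOf (fmv t v) = ∑ j ∈ Finset.range 32, g j := by
    rw [fmv_eq, vecOf_xs, ← sum_blocks g 4]
    apply Finset.sum_congr rfl
    intro k hk
    rw [hsel k (Finset.mem_range.1 hk), sel, vecOf_xs]
    apply Finset.sum_congr rfl
    intro i hi
    have hi8 : i < 8 := Finset.mem_range.1 hi
    rw [vecOf_cond, byte_testBit v k i hi8]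
    show _ = if v.testBit (8 * k + i) then vecOf (col t (8 * k + i)) else 0
    have h1 : (8 * k + i) / 8 = k := by omega
    have h2 : (8 * k + i) % 8 = i := by omega
    unfold col
    rw [h1, h2]
  have h32 : ∑ j ∈ Finset.range 32, g j = ∑ j ∈ Finset.range 28, g j := by
    have : (32 : ℕ) = 28 + 4 := rfl
    rw [this, Finset.sum_range_add]
    have hz : ∑ x ∈ Finset.range 4, g (28 + x) = 0 := by
      apply Finset.sum_eq_zero
      intro x _
      have hb : v.testBit (28 + x) = false := by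
        apply Nat.testBit_lt_two_pow
        calc v < 2 ^ 28 := hv
          _ ≤ 2 ^ (28 + x) := Nat.pow_le_pow_right (by norm_num) (by omega)
      show (if v.testBit (28 + x) then vecOf (col t (28 + x)) else 0) = 0
      rw [hb]
      simp
    rw [hz, add_zero]
  rw [hL, h32, ← Fin.sum_univ_eq_sum_range g 28]
  funext i
  rw [Finset.sum_apply]
  simp only [Matrix.mulVec, dotProduct, MatT, Matrix.of_apply, vecOf_apply]
  apply Finset.sum_congr rfl
  intro J _
  show (if v.testBit J.val then vecOf (col t J.val) else 0) i = _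
  by_cases hb : v.testBit J.val
  · rw [if_pos hb]
    simp [vecOf_apply, hb]
  · rw [if_neg hb]
    simp [hb]

/-- the code of a basis vector. -/
theorem vecOf_two_pow (J : Idx) : vecOf (2 ^ J.val) = Pi.single J 1 := by
  funext k
  rw [vecOf_apply, Nat.testBit_two_pow]
  by_cases h : J = k
  · subst h
    simp
  · have : J.val ≠ k.val := fun h' => h (Fin.ext h')
    simp [this, Pi.single_apply, Ne.symm h]

theorem two_pow_lt (k : ℕ) (hk : k < 28) : 2 ^ k < 2 ^ 28 :=
  Nat.pow_lt_pow_right (by norm_num) hk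

/-- two matrices agreeing on the basis vectors are equal. -/
theorem mat_ext_basis (A B : Matrix Idx Idx (ZMod 2))
    (h : ∀ k < 28, A.mulVec (vecOf (2 ^ k)) = B.mulVec (vecOf (2 ^ k))) : A = B := by
  ext i j
  have h1 := h j.val j.isLt
  rw [vecOf_two_pow, Matrix.mulVec_single_one, Matrix.mulVec_single_one] at h1
  exact congrFun h1 i

/-- the product of two table matrices is the identity when the tables say so on the basis. -/
theorem MatT_mul_eq_one (t1 t2 : Tab) (h1 : tabOK t1 = true) (h2 : tabOK t2 = true)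
    (h : allB 28 (fun k => Nat.beq (fmv t1 (fmv t2 (Nat.pow 2 k))) (Nat.pow 2 k)) = true) :
    MatT t1 * MatT t2 = 1 := by
  rw [allB_iff] at h
  apply mat_ext_basis
  intro k hk
  have e : fmv t1 (fmv t2 (2 ^ k)) = 2 ^ k := (beq_iff _ _).1 (h k hk)
  rw [← Matrix.mulVec_mulVec, ← fmv_sound t2 h2 _ (two_pow_lt k hk),
    ← fmv_sound t1 h1 _ (fmv_lt _ _), e, Matrix.one_mulVec]

end Cfsg.Agent.Lib.Helper61.RuFast
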