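import Mathlib
import Cfsg.Agent.Lib.Helper61.RuFast
import Cfsg.Agent.Lib.Helper61.RuData

set_option autoImplicit false

/-! Fourteen letters of `GL_28(F_2)` given by byte-sliced tables (with their inverses among them),
words in them acting on coded vectors, and identities between words checked on the basis. -/

namespace Cfsg.Agent.Lib.Helper61.RuMain

open Cfsg.Agent.Lib.Helper61.RuFast Cfsg.Agent.Lib.Helper61.RuData

abbrev GLt : Type := GL Idx (ZMod 2)
abbrev Vt : Type := Idx → ZMod 2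

/-- the table of letter `l`. -/
def ttab (l : ℕ) : Tab := ttabs.getD l idTab

/-- the letter inverse to letter `l`. -/
def tinv (l : ℕ) : ℕ := tinvs.getD l 0

theorem ttab_ok : ∀ l : Fin 14, tabOK (ttab l.val) = true := by decide +kernel

theorem tinv_lt : ∀ l : Fin 14, tinv l.val < 14 := by decide +kernel

theorem tinv_chk : ∀ l : Fin 14, allB 28 (fun k =>
    Nat.beq (fmv (ttab l.val) (fmv (ttab (tinv l.val)) (Nat.pow 2 k))) (Nat.pow 2 k)) = true := by
  decide +kernel

theorem tinv_chk' : ∀ l : Fin 14, allB 28 (fun k =>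
    Nat.beq (fmv (ttab (tinv l.val)) (fmv (ttab l.val) (Nat.pow 2 k))) (Nat.pow 2 k)) = true := by
  decide +kernel

theorem mul1 (l : ℕ) (h : l < 14) : MatT (ttab l) * MatT (ttab (tinv l)) = 1 :=
  MatT_mul_eq_one _ _ (ttab_ok ⟨l, h⟩) (ttab_ok ⟨tinv l, tinv_lt ⟨l, h⟩⟩) (tinv_chk ⟨l, h⟩)

theorem mul2 (l : ℕ) (h : l < 14) : MatT (ttab (tinv l)) * MatT (ttab l) = 1 :=
  MatT_mul_eq_one _ _ (ttab_ok ⟨tinv l, tinv_lt ⟨l, h⟩⟩) (ttab_ok ⟨l, h⟩) (tinv_chk' ⟨l, h⟩)

/-- the letters as units. -/
def tlU (l : ℕ) : GLt :=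
  if h : l < 14 then ⟨MatT (ttab l), MatT (ttab (tinv l)), mul1 l h, mul2 l h⟩ else 1

theorem tlU_val (l : ℕ) (h : l < 14) : (tlU l).1 = MatT (ttab l) := by
  unfold tlU
  rw [dif_pos h]

theorem tlU_inv (l : ℕ) (h : l < 14) : tlU l * tlU (tinv l) = 1 := by
  apply Units.ext
  rw [Units.val_mul, tlU_val l h, tlU_val _ (tinv_lt ⟨l, h⟩), Units.val_one]
  exact mul1 l h

/-- product of the letters of a word. -/
def wp (sem : ℕ → GLt) (w : List ℕ) : GLt := (w.map sem).prod

theorem wp_nil (sem : ℕ → GLt) : wp sem [] = 1 := rfl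

theorem wp_cons (sem : ℕ → GLt) (l : ℕ) (w : List ℕ) : wp sem (l :: w) = sem l * wp sem w := by
  simp [wp]

theorem wp_append (sem : ℕ → GLt) (u w : List ℕ) : wp sem (u ++ w) = wp sem u * wp sem w := by
  simp [wp]

theorem wp_mem (sem : ℕ → GLt) (H : Subgroup GLt) (w : List ℕ) (hw : ∀ l ∈ w, sem l ∈ H) :
    wp sem w ∈ H := by
  induction w with
  | nil => exact H.one_mem
  | cons l w ih =>
    rw [wp_cons]
    exact H.mul_mem (hw l (by simp)) (ih (fun l' hl' => hw l' (by simp [hl'])))

/-- the action of `GL` on vectors. -/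
@[reducible] def actGL : MulAction GLt Vt where
  smul g v := g.1.mulVec v
  one_smul v := Matrix.one_mulVec v
  mul_smul g h v := by
    show (g.1 * h.1).mulVec v = g.1.mulVec (h.1.mulVec v)
    rw [Matrix.mulVec_mulVec]

attribute [local instance] actGL

theorem smul_def (g : GLt) (v : Vt) : g • v = (g.1).mulVec v := rfl

theorem smul_add' (g : GLt) (v w : Vt) : g • (v + w) = g • v + g • w := by
  rw [smul_def, smul_def, smul_def, Matrix.mulVec_add]

/-- a table is sound for a unit. -/
def Sound (t : Tab) (g : GLt) : Prop := tabOK t = true ∧ MatT t = g.1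

theorem Sound.smul {t : Tab} {g : GLt} (h : Sound t g) (v : ℕ) (hv : v < 2 ^ 28) :
    vecOf (fmv t v) = g • vecOf v := by
  rw [smul_def, ← h.2]
  exact fmv_sound t h.1 v hv

/-- fast action of a word through a family of tables. -/
noncomputable def fmvW (tab : ℕ → Tab) (w : List ℕ) (c : ℕ) : ℕ :=
  @List.rec ℕ (fun _ => ℕ) c (fun l _ acc => fmv (tab l) acc) w

theorem fmvW_nil (tab : ℕ → Tab) (c : ℕ) : fmvW tab [] c = c := rfl

theorem fmvW_cons (tab : ℕ → Tab) (l : ℕ) (w : List ℕ) (c : ℕ) :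
    fmvW tab (l :: w) c = fmv (tab l) (fmvW tab w c) := rfl

theorem fmvW_lt (tab : ℕ → Tab) (w : List ℕ) (c : ℕ) (hc : c < 2 ^ 28) : fmvW tab w c < 2 ^ 28 := by
  cases w with
  | nil => exact hc
  | cons l w => rw [fmvW_cons]; exact fmv_lt _ _

theorem fmvW_sound (tab : ℕ → Tab) (sem : ℕ → GLt) (hs : ∀ l, Sound (tab l) (sem l))
    (w : List ℕ) (c : ℕ) (hc : c < 2 ^ 28) : vecOf (fmvW tab w c) = wp sem w • vecOf c := by
  induction w with
  | nil => rw [fmvW_nil, wp_nil, one_smul]
  | cons l w ih =>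
    rw [fmvW_cons, (hs l).smul _ (fmvW_lt tab w c hc), ih, wp_cons, mul_smul]

/-- two units agreeing on the basis vectors are equal. -/
theorem eq_of_basis (g h : GLt) (hgh : ∀ k < 28, g • vecOf (2 ^ k) = h • vecOf (2 ^ k)) : g = h := by
  apply Units.ext
  exact mat_ext_basis _ _ hgh

/-! ### the tables -/

theorem idTab_ok : tabOK idTab = true := by decide +kernel

theorem idTab_chk : allB 28 (fun k =>
    Nat.beq (fmv idTab (fmv idTab (Nat.pow 2 k))) (Nat.pow 2 k)) = true := by decide +kernel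

theorem idTab_fix : ∀ k : Fin 28, fmv idTab (2 ^ k.val) = 2 ^ k.val := by decide +kernel

theorem MatT_id : MatT idTab = 1 := by
  apply mat_ext_basis
  intro k hk
  rw [← fmv_sound idTab idTab_ok _ (two_pow_lt k hk), idTab_fix ⟨k, hk⟩, Matrix.one_mulVec]

theorem tsound (l : ℕ) : Sound (ttab l) (tlU l) := by
  by_cases h : l < 14
  · exact ⟨ttab_ok ⟨l, h⟩, (tlU_val l h).symm⟩
  · have h1 : ttab l = idTab := by
      unfold ttab
      rw [List.getD_eq_default]
      exact (by omega : 14 ≤ l)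
    have h2 : tlU l = 1 := by
      unfold tlU
      rw [dif_neg h]
    rw [h1, h2]
    exact ⟨idTab_ok, MatT_id⟩

/-- fast action of a word of letters on a coded vector. -/
theorem tw_sound (w : List ℕ) (c : ℕ) (hc : c < 2 ^ 28) :
    vecOf (fmvW ttab w c) = wp tlU w • vecOf c := fmvW_sound ttab tlU tsound w c hc

theorem smul_code (l c : ℕ) (hc : c < 2 ^ 28) : tlU l • vecOf c = vecOf (fmv (ttab l) c) :=
  ((tsound l).smul c hc).symm

/-! ### identities between words, checked on the basis -/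

noncomputable def mapF (t : Tab) (vs : List ℕ) : List ℕ :=
  @List.rec ℕ (fun _ => List ℕ) [] (fun v _ acc => fmv t v :: acc) vs

theorem mapF_eq (t : Tab) (vs : List ℕ) : mapF t vs = vs.map (fmv t) := by
  induction vs with
  | nil => rfl
  | cons v vs ih =>
    show fmv t v :: mapF t vs = _
    rw [ih]; rfl

/-- fast action of a word on a list of coded vectors. -/
noncomputable def fmvWL (tab : ℕ → Tab) (w : List ℕ) (vs : List ℕ) : List ℕ :=
  @List.rec ℕ (fun _ => List ℕ) vs (fun l _ acc => mapF (tab l) acc) w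

theorem fmvWL_eq (tab : ℕ → Tab) (w : List ℕ) (vs : List ℕ) :
    fmvWL tab w vs = vs.map (fmvW tab w) := by
  induction w with
  | nil =>
    show vs = _
    have h : fmvW tab [] = id := rfl
    rw [h, List.map_id]
  | cons l w ih =>
    show mapF (tab l) (fmvWL tab w vs) = _
    rw [ih, mapF_eq, List.map_map]
    rfl

theorem fmvWL_append (tab : ℕ → Tab) (u w : List ℕ) (vs : List ℕ) :
    fmvWL tab (u ++ w) vs = fmvWL tab u (fmvWL tab w vs) := by
  induction u with
  | nil => rfl
  | cons l u ih =>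
    show mapF (tab l) (fmvWL tab (u ++ w) vs) = mapF (tab l) (fmvWL tab u (fmvWL tab w vs))
    rw [ih]

/-- equality of lists of numbers. -/
noncomputable def eqL (l1 : List ℕ) : List ℕ → Bool :=
  @List.rec ℕ (fun _ => List ℕ → Bool)
    (fun l2 => @List.rec ℕ (fun _ => Bool) true (fun _ _ _ => false) l2)
    (fun a _ ih l2 => @List.rec ℕ (fun _ => Bool) false (fun b t _ => Nat.beq a b && ih t) l2) l1

theorem eqL_iff (l1 l2 : List ℕ) : eqL l1 l2 = true ↔ l1 = l2 := by
  induction l1 generalizing l2 with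
  | nil =>
    cases l2 with
    | nil => simp [eqL]
    | cons b t => simp [eqL]
  | cons a l1 ih =>
    cases l2 with
    | nil => simp [eqL]
    | cons b t =>
      show (Nat.beq a b && eqL l1 t) = true ↔ _
      rw [Bool.and_eq_true, beq_iff, ih t]
      simp

theorem basis_mem : ∀ k : Fin 28, 2 ^ k.val ∈ basis := by decide +kernel

/-- two words of letters agree on the basis vectors. -/
noncomputable def idchk (w1 w2 : List ℕ) : Bool :=
  eqL (fmvWL ttab w1 basis) (fmvWL ttab w2 basis)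

theorem idchk_sound {w1 w2 : List ℕ} (h : idchk w1 w2 = true) : wp tlU w1 = wp tlU w2 := by
  unfold idchk at h
  rw [eqL_iff, fmvWL_eq, fmvWL_eq] at h
  have h2 := List.map_inj_left.1 h
  apply eq_of_basis
  intro k hk
  rw [← tw_sound w1 _ (two_pow_lt k hk), ← tw_sound w2 _ (two_pow_lt k hk),
    h2 _ (basis_mem ⟨k, hk⟩)]

/-- a word repeated. -/
noncomputable def rep (m : ℕ) (w : List ℕ) : List ℕ :=
  @Nat.rec (fun _ => List ℕ) [] (fun _ acc => w ++ acc) m

theorem wp_rep (sem : ℕ → GLt) (m : ℕ) (w : List ℕ) : wp sem (rep m w) = wp sem w ^ m := by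
  induction m with
  | zero => rfl
  | succ m ih =>
    show wp sem (w ++ rep m w) = _
    rw [wp_append, ih, pow_succ']

theorem tl_eq {l : ℕ} {w : List ℕ} (h : idchk [l] w = true) : tlU l = wp tlU w := by
  have := idchk_sound h
  rwa [wp_cons, wp_nil, mul_one] at this

theorem wp_mem_of (H : Subgroup GLt) (p : ℕ → Prop) [DecidablePred p]
    (hp : ∀ l, p l → tlU l ∈ H) (w : List ℕ) (hw : w.all (fun l => decide (p l)) = true) :
    wp tlU w ∈ H := by
  apply wp_mem
  intro l hl
  rw [List.all_eq_true] at hw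
  exact hp l (of_decide_eq_true (hw l hl))

/-- a power of a letter is trivial. -/
theorem tl_pow {l m : ℕ} (h : idchk (rep m [l]) [] = true) : tlU l ^ m = 1 := by
  have := idchk_sound h
  rw [wp_rep, wp_cons, wp_nil, mul_one] at this
  exact this

end Cfsg.Agent.Lib.Helper61.RuMain
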