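import Mathlib
import Cfsg.Agent.Lib.Helper61.RuMain

set_option autoImplicit false

/-! Levels of a stabiliser chain for words of letters acting on coded vectors of `F_2^28`:
Schreier trees packed into naturals, their checks, the Schreier generator checks (with nodes
skipped along the cycles of a generator of known order) and their soundness; forests of orbits,
block steps and a spanning check. -/

namespace Cfsg.Agent.Lib.Helper61.RuLvl

open Cfsg.Agent.Lib.Helper61.RuFast Cfsg.Agent.Lib.Helper61.RuData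
open Cfsg.Agent.Lib.Helper61.RuMain

attribute [local instance] actGL

/-- entry `j` of a table of 32-bit entries. -/
def en (P j : ℕ) : ℕ := Nat.land (Nat.shiftRight P (Nat.mul 32 j)) 4294967295

/-- parent of node `j`. -/
def pr (P j : ℕ) : ℕ := Nat.land (en P j) 4095

/-- letter of the edge from the parent to node `j`. -/
def gi (P j : ℕ) : ℕ := Nat.land (Nat.shiftRight (en P j) 12) 31

/-- depth of node `j`. -/
def dp (P j : ℕ) : ℕ := Nat.shiftRight (en P j) 17

/-- the word read along `d` tree edges from node `j` towards the root. -/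
noncomputable def uw (P : ℕ) (d : ℕ) : ℕ → List ℕ :=
  @Nat.rec (fun _ => ℕ → List ℕ) (fun _ => []) (fun _ ih j => gi P j :: ih (pr P j)) d

theorem uw_zero (P j : ℕ) : uw P 0 j = [] := rfl

theorem uw_succ (P d j : ℕ) : uw P (d + 1) j = gi P j :: uw P d (pr P j) := rfl

/-- the representative of node `j`. -/
noncomputable def U (P j : ℕ) : GLt := wp tlU (uw P (dp P j) j)

/-- the check at node `j` of a tree. -/
noncomputable def okNode (T P rt n lo hi j : ℕ) : Bool :=
  Nat.beq j rt ||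
    (Nat.blt (pr P j) n && (Nat.beq (dp P j) (Nat.succ (dp P (pr P j))) &&
      (Nat.ble lo (gi P j) && (Nat.blt (gi P j) hi &&
        Nat.beq (fmv (ttab (gi P j)) (lk T (pr P j))) (lk T j)))))

/-- the check of a level: tree with root `rt` of code `b`, `n` nodes of increasing codes, edge
letters in `[lo, hi)`. -/
noncomputable def okLvl (T P rt n lo hi b : ℕ) : Bool :=
  Nat.blt rt n && (Nat.beq (lk T rt) b && (Nat.beq (dp P rt) 0 &&
    (allB n (fun j => okNode T P rt n lo hi j) &&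
      allB (Nat.pred n) (fun j => Nat.blt (lk T j) (lk T (Nat.succ j))))))

structure LvlOK (T P rt n lo hi b : ℕ) : Prop where
  rt_lt : rt < n
  rt_pt : lk T rt = b
  rt_dp : dp P rt = 0
  node : ∀ j < n, j ≠ rt → pr P j < n ∧ dp P j = dp P (pr P j) + 1 ∧ lo ≤ gi P j ∧ gi P j < hi ∧
    fmv (ttab (gi P j)) (lk T (pr P j)) = lk T j
  mono : ∀ j, j + 1 < n → lk T j < lk T (j + 1)

theorem blt_iff (a b : ℕ) : Nat.blt a b = true ↔ a < b := by
  rw [Nat.blt_eq]

theorem ble_iff (a b : ℕ) : Nat.ble a b = true ↔ a ≤ b := by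
  rw [Nat.ble_eq]

theorem lvlOK_of {T P rt n lo hi b : ℕ} (h : okLvl T P rt n lo hi b = true) :
    LvlOK T P rt n lo hi b := by
  unfold okLvl at h
  simp only [Bool.and_eq_true, blt_iff, beq_iff, allB_iff] at h
  obtain ⟨h1, h2, h3, h4, h5⟩ := h
  refine ⟨h1, h2, h3, ?_, ?_⟩
  · intro j hj hne
    have := h4 j hj
    unfold okNode at this
    simp only [Bool.or_eq_true, Bool.and_eq_true, blt_iff, beq_iff, ble_iff] at this
    rcases this with h | h
    · exact absurd h hne
    · exact h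
  · intro j hj
    exact h5 j (by show j < n - 1; omega)

namespace LvlOK

variable {T P rt n lo hi b : ℕ}

theorem strict (h : LvlOK T P rt n lo hi b) : ∀ j, j < n → ∀ i, i < j → lk T i < lk T j := by
  intro j
  induction j with
  | zero => intro _ i hi; omega
  | succ j ih =>
    intro hj i hi
    have h1 := h.mono j hj
    rcases Nat.lt_succ_iff_lt_or_eq.mp hi with h2 | rfl
    · exact lt_trans (ih (by omega) i h2) h1
    · exact h1

theorem U_rt (h : LvlOK T P rt n lo hi b) : U P rt = 1 := by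
  unfold U
  rw [h.rt_dp, uw_zero, wp_nil]

theorem U_step (h : LvlOK T P rt n lo hi b) (j : ℕ) (hj : j < n) (hne : j ≠ rt) :
    U P j = tlU (gi P j) * U P (pr P j) := by
  obtain ⟨_, h2, _⟩ := h.node j hj hne
  unfold U
  rw [h2, uw_succ, wp_cons]

theorem aux (h : LvlOK T P rt n lo hi b) (H : Subgroup GLt)
    (hH : ∀ l, lo ≤ l → l < hi → tlU l ∈ H) :
    ∀ d j, j < n → dp P j = d → vecOf (lk T j) = U P j • vecOf b ∧ U P j ∈ H := by
  intro d
  induction d with
  | zero =>
    intro j hj hd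
    by_cases hne : j = rt
    · subst hne
      rw [h.U_rt, one_smul, h.rt_pt]
      exact ⟨rfl, H.one_mem⟩
    · obtain ⟨_, h2, _⟩ := h.node j hj hne
      omega
  | succ d ih =>
    intro j hj hd
    have hne : j ≠ rt := by
      rintro rfl
      rw [h.rt_dp] at hd
      omega
    obtain ⟨h1, h2, h3, h4, h5⟩ := h.node j hj hne
    obtain ⟨i1, i2⟩ := ih (pr P j) h1 (by omega)
    rw [h.U_step j hj hne]
    refine ⟨?_, H.mul_mem (hH _ h3 h4) i2⟩
    rw [← h5, (tsound (gi P j)).smul _ (lk_lt _ _), i1, mul_smul]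

theorem U_pt (h : LvlOK T P rt n lo hi b) (j : ℕ) (hj : j < n) :
    vecOf (lk T j) = U P j • vecOf b :=
  (h.aux ⊤ (fun _ _ _ => Subgroup.mem_top _) _ j hj rfl).1

theorem U_mem (h : LvlOK T P rt n lo hi b) (H : Subgroup GLt)
    (hH : ∀ l, lo ≤ l → l < hi → tlU l ∈ H) (j : ℕ) (hj : j < n) : U P j ∈ H :=
  (h.aux H hH _ j hj rfl).2

theorem U_inj (h : LvlOK T P rt n lo hi b) (i : ℕ) (hi : i < n) (j : ℕ) (hj : j < n)
    (e : U P i • vecOf b = U P j • vecOf b) : i = j := by
  rw [← h.U_pt i hi, ← h.U_pt j hj] at e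
  have e2 := vecOf_inj_lt (lk_lt _ _) (lk_lt _ _) e
  rcases Nat.lt_trichotomy i j with h1 | h1 | h1
  · exact absurd e2 (ne_of_lt (h.strict j hj i h1))
  · exact h1
  · exact absurd e2.symm (ne_of_lt (h.strict i hi j h1))

end LvlOK

/-- entry `j` of a table of 64-bit entries. -/
def en64 (H j : ℕ) : ℕ := Nat.land (Nat.shiftRight H (Nat.mul 64 j)) 18446744073709551615

/-- the node of the image of node `j` under the generator. -/
def nx (H j : ℕ) : ℕ := Nat.land (en64 H j) 4095

/-- node `j` is skipped. -/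
def sk (H j : ℕ) : Bool := Nat.beq (Nat.land (Nat.shiftRight (en64 H j) 12) 1) 1

/-- residue fields of a hint entry. -/
def f1 (e : ℕ) : ℕ := Nat.land (Nat.shiftRight e 16) 4095

def f2 (e : ℕ) : ℕ := Nat.land (Nat.shiftRight e 28) 4095

def f3 (e : ℕ) : ℕ := Nat.land (Nat.shiftRight e 40) 4095

def fe (e : ℕ) : Bool := Nat.beq (Nat.land (Nat.shiftRight e 52) 1) 1

/-- the direct Schreier check for the generator letter `s` (with inverse letter `sinv`) at node
`j`: the hint entry gives the node `j'` of the image; either a tree edge joins `j` and `j'`, or the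
residue `resl e` (a list of images of the basis vectors) closes the identity. -/
noncomputable def dok (P rt n : ℕ) (resok : ℕ → Bool) (resl : ℕ → List ℕ)
    (Hn s sinv j : ℕ) : Bool :=
  Nat.blt (nx Hn j) n &&
    ((Nat.beq (pr P (nx Hn j)) j && (Nat.beq (gi P (nx Hn j)) s && !(Nat.beq (nx Hn j) rt))) ||
     ((Nat.beq (pr P j) (nx Hn j) && (Nat.beq (gi P j) sinv && !(Nat.beq j rt))) ||
      (resok (en64 Hn j) &&
        eqL (fmvWL ttab (s :: uw P (dp P j) j) basis)
          (fmvWL ttab (uw P (dp P (nx Hn j)) (nx Hn j)) (resl (en64 Hn j))))))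

theorem dok_sound {T P rt n lo hi b : ℕ} (hl : LvlOK T P rt n lo hi b)
    (resok : ℕ → Bool) (resl : ℕ → List ℕ) (H1 : Subgroup GLt)
    (hres : ∀ e, resok e = true → ∃ w, wp tlU w ∈ H1 ∧ resl e = fmvWL ttab w basis)
    (Hn s sinv : ℕ) (hinv : tlU s * tlU sinv = 1) (j : ℕ) (hj : j < n)
    (h : dok P rt n resok resl Hn s sinv j = true) :
    nx Hn j < n ∧ ∃ h ∈ H1, tlU s * U P j = U P (nx Hn j) * h := by
  unfold dok at h
  simp only [Bool.and_eq_true, Bool.or_eq_true, blt_iff, beq_iff, Bool.not_eq_true',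
    beq_eq_false_iff_ne] at h
  obtain ⟨hj', h⟩ := h
  refine ⟨hj', ?_⟩
  rcases h with ⟨h1, h2, h3⟩ | ⟨h1, h2, h3⟩ | ⟨h1, h2⟩
  · refine ⟨1, H1.one_mem, ?_⟩
    have hne : nx Hn j ≠ rt := by
      intro e
      rw [(beq_iff _ _).2 e] at h3
      exact Bool.noConfusion h3
    rw [hl.U_step _ hj' hne, h1, h2, mul_one]
  · refine ⟨1, H1.one_mem, ?_⟩
    have hne : j ≠ rt := by
      intro e
      rw [(beq_iff _ _).2 e] at h3
      exact Bool.noConfusion h3
    rw [hl.U_step j hj hne, h1, h2, ← mul_assoc, hinv, one_mul, mul_one]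
  · obtain ⟨w, hw, e⟩ := hres _ h1
    refine ⟨wp tlU w, hw, ?_⟩
    rw [e, ← fmvWL_append] at h2
    have := idchk_sound (w1 := s :: uw P (dp P j) j) (w2 := _ ++ w) h2
    rw [wp_cons, wp_append] at this
    exact this

/-- the cycle of a skipped node: `k` further nodes, none skipped, and back to `j0`. -/
noncomputable def cycAux (Hn n j0 : ℕ) (k : ℕ) : ℕ → Bool :=
  @Nat.rec (fun _ => ℕ → Bool) (fun x => Nat.beq x j0)
    (fun _ ih x => Nat.blt x n && (!(sk Hn x) && ih (nx Hn x))) k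

theorem cycAux_zero (Hn n j0 x : ℕ) : cycAux Hn n j0 0 x = Nat.beq x j0 := rfl

theorem cycAux_succ (Hn n j0 k x : ℕ) :
    cycAux Hn n j0 (k + 1) x = (Nat.blt x n && (!(sk Hn x) && cycAux Hn n j0 k (nx Hn x))) := rfl

/-- the heavy check at a node: skipped, or directly checked. -/
noncomputable def sokA (P rt n : ℕ) (resok : ℕ → Bool) (resl : ℕ → List ℕ)
    (Hn s sinv j : ℕ) : Bool :=
  sk Hn j || dok P rt n resok resl Hn s sinv j

/-- the light check at a node: not skipped, or on a cycle of `m + 1` nodes of which it is the only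
one skipped. -/
noncomputable def sokB (Hn n m j : ℕ) : Bool :=
  !(sk Hn j) || cycAux Hn n j m (nx Hn j)

theorem cyc_chain {P n : ℕ} (H1 : Subgroup GLt) (Hn s j : ℕ)
    (hD : ∀ x < n, sk Hn x = false →
      nx Hn x < n ∧ ∃ h ∈ H1, tlU s * U P x = U P (nx Hn x) * h) :
    ∀ k x, cycAux Hn n j k x = true → ∃ h ∈ H1, tlU s ^ k * U P x = U P j * h := by
  intro k
  induction k with
  | zero =>
    intro x hx
    rw [cycAux_zero, beq_iff] at hx
    subst hx
    exact ⟨1, H1.one_mem, by rw [pow_zero, one_mul, mul_one]⟩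
  | succ k ih =>
    intro x hx
    rw [cycAux_succ] at hx
    simp only [Bool.and_eq_true, blt_iff, Bool.not_eq_true'] at hx
    obtain ⟨hxn, hsx, hc⟩ := hx
    obtain ⟨_, h1, hh1, e1⟩ := hD x hxn hsx
    obtain ⟨h2, hh2, e2⟩ := ih _ hc
    exact ⟨h2 * h1, H1.mul_mem hh2 hh1, by rw [pow_succ, mul_assoc, e1, ← mul_assoc, e2, mul_assoc]⟩

/-- soundness of the checks of a level for one generator of order dividing `m + 1`. -/
theorem lvl_sound {T P rt n lo hi b : ℕ} (hl : LvlOK T P rt n lo hi b)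
    (resok : ℕ → Bool) (resl : ℕ → List ℕ) (H1 : Subgroup GLt)
    (hres : ∀ e, resok e = true → ∃ w, wp tlU w ∈ H1 ∧ resl e = fmvWL ttab w basis)
    (Hn s sinv : ℕ) (hinv : tlU s * tlU sinv = 1) (m : ℕ) (hpow : tlU s ^ (m + 1) = 1)
    (hA : ∀ j < n, sokA P rt n resok resl Hn s sinv j = true)
    (hB : allB n (fun j => sokB Hn n m j) = true) (hm : 1 ≤ m) :
    ∀ j < n, ∃ j' < n, ∃ h ∈ H1, tlU s * U P j = U P j' * h := by
  have hD : ∀ x < n, sk Hn x = false →
      nx Hn x < n ∧ ∃ h ∈ H1, tlU s * U P x = U P (nx Hn x) * h := by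
    intro x hx hs
    have h1 := hA x hx
    unfold sokA at h1
    rw [hs, Bool.false_or] at h1
    exact dok_sound hl resok resl H1 hres Hn s sinv hinv x hx h1
  intro j hj
  by_cases hs : sk Hn j = true
  · have h1 := (allB_iff _ _).1 hB j hj
    unfold sokB at h1
    rw [hs] at h1
    simp only [Bool.not_true, Bool.false_or] at h1
    obtain ⟨m', rfl⟩ : ∃ m', m = m' + 1 := ⟨m - 1, by omega⟩
    have hlt : nx Hn j < n := by
      rw [cycAux_succ] at h1
      simp only [Bool.and_eq_true, blt_iff] at h1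
      exact h1.1
    obtain ⟨h, hh, e⟩ := cyc_chain H1 Hn s j hD _ _ h1
    refine ⟨nx Hn j, hlt, h⁻¹, H1.inv_mem hh, ?_⟩
    have e2 : U P j = tlU s ^ (m' + 1) * U P (nx Hn j) * h⁻¹ := by
      rw [e, mul_inv_cancel_right]
    calc tlU s * U P j = tlU s * (tlU s ^ (m' + 1) * U P (nx Hn j) * h⁻¹) := by rw [← e2]
      _ = tlU s ^ (m' + 1 + 1) * U P (nx Hn j) * h⁻¹ := by
        rw [pow_succ' (tlU s) (m' + 1)]
        simp only [mul_assoc]
      _ = U P (nx Hn j) * h⁻¹ := by rw [hpow, one_mul]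
  · have hs' : sk Hn j = false := by simpa using hs
    obtain ⟨h1, h, hh, e⟩ := hD j hj hs'
    exact ⟨nx Hn j, h1, h, hh, e⟩

/-- from a range check to its members. -/
theorem allB_range {f : ℕ → Bool} {lo len : ℕ} (h : allB len (fun k => f (Nat.add lo k)) = true)
    (j : ℕ) (h1 : lo ≤ j) (h2 : j < lo + len) : f j = true := by
  rw [allB_iff] at h
  have := h (j - lo) (by omega)
  have e : Nat.add lo (j - lo) = j := by show lo + (j - lo) = j; omega
  rwa [e] at this

/-! ### forests of orbits and block steps -/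

/-- the check at node `j` of a forest on the points of a table: a root, or an edge from its
parent by a letter in `[lo, hi)`. -/
noncomputable def okF (T F n lo hi : ℕ) (rootB : ℕ → Bool) (j : ℕ) : Bool :=
  cond (Nat.beq (dp F j) 0) (rootB j)
    (Nat.blt (pr F j) n && (Nat.beq (dp F j) (Nat.succ (dp F (pr F j))) &&
      (Nat.ble lo (gi F j) && (Nat.blt (gi F j) hi &&
        Nat.beq (fmv (ttab (gi F j)) (lk T (pr F j))) (lk T j)))))

theorem forest_sound (T F n lo hi : ℕ) (rootB : ℕ → Bool) (Hs : Subgroup GLt)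
    (hHs : ∀ l, lo ≤ l → l < hi → tlU l ∈ Hs)
    (hok : allB n (fun j => okF T F n lo hi rootB j) = true) :
    ∀ d j, j < n → dp F j = d →
      ∃ r, rootB r = true ∧ ∃ h ∈ Hs, vecOf (lk T j) = h • vecOf (lk T r) := by
  intro d
  induction d with
  | zero =>
    intro j hj hd
    have h := (allB_iff _ _).1 hok j hj
    unfold okF at h
    rw [(beq_iff _ _).2 hd] at h
    simp only [cond_true] at h
    exact ⟨j, h, 1, Hs.one_mem, (one_smul _ _).symm⟩
  | succ d ih =>
    intro j hj hd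
    have h := (allB_iff _ _).1 hok j hj
    unfold okF at h
    have hne : Nat.beq (dp F j) 0 = false := by
      rw [hd]
      rfl
    rw [hne] at h
    simp only [cond_false, Bool.and_eq_true, blt_iff, beq_iff, ble_iff] at h
    obtain ⟨h1, h2, h3, h4, h5⟩ := h
    obtain ⟨r, hr, g, hg, e⟩ := ih (pr F j) h1 (by omega)
    refine ⟨r, hr, tlU (gi F j) * g, Hs.mul_mem (hHs _ h3 h4) hg, ?_⟩
    rw [← h5, ← smul_code _ _ (lk_lt _ _), e, mul_smul]

/-- a derivation step for a block. -/
theorem blk_step {T P rt n lo hi b : ℕ} (hl : LvlOK T P rt n lo hi b) (G Hs : Subgroup GLt)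
    (hG : ∀ l, lo ≤ l → l < hi → tlU l ∈ G) (hHs : Hs ≤ G)
    (hfix : ∀ h ∈ Hs, h • vecOf b = vecOf b)
    (B : Set Vt) (hω : vecOf b ∈ B) (hB : ∀ g ∈ G, g • vecOf b ∈ B → ∀ s ∈ B, g • s ∈ B)
    (p q m : ℕ) (w : List ℕ) (hp : p < n) (hw : wp tlU w ∈ Hs)
    (hc : fmvW ttab w (fmvW ttab (uw P (dp P p) p) (lk T q)) = lk T m)
    (hpB : vecOf (lk T p) ∈ B) (hqB : vecOf (lk T q) ∈ B) : vecOf (lk T m) ∈ B := by
  have h1 : U P p • vecOf (lk T q) ∈ B :=
    hB (U P p) (hl.U_mem G hG p hp) (by rw [← hl.U_pt p hp]; exact hpB) _ hqB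
  have h3 : wp tlU w • (U P p • vecOf (lk T q)) ∈ B :=
    hB _ (hHs hw) (by rw [hfix _ hw]; exact hω) _ h1
  rw [← hc, tw_sound w _ (fmvW_lt _ _ _ (lk_lt _ _)), tw_sound _ _ (lk_lt _ _)]
  exact h3

/-! ### spanning -/

/-- xor of the entries of a table at a list of indices. -/
noncomputable def xorL (T : ℕ) (l : List ℕ) : ℕ :=
  @List.rec ℕ (fun _ => ℕ) 0 (fun j _ acc => Nat.xor (lk T j) acc) l

theorem fix_xorL (T n : ℕ) (g : GLt) (hg : ∀ j < n, g • vecOf (lk T j) = vecOf (lk T j))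
    (l : List ℕ) (hl : ∀ j ∈ l, j < n) : g • vecOf (xorL T l) = vecOf (xorL T l) := by
  induction l with
  | nil =>
    show g • vecOf 0 = vecOf 0
    rw [vecOf_zero, smul_def, Matrix.mulVec_zero]
  | cons j l ih =>
    show g • vecOf (lk T j ^^^ xorL T l) = vecOf (lk T j ^^^ xorL T l)
    rw [vecOf_xor, smul_add', hg j (hl j (by simp)), ih (fun j' hj' => hl j' (by simp [hj']))]

/-- the spanning check: basis vector `k` is the xor of the points listed in entry `k`. -/
noncomputable def spanOK (T n : ℕ) (sp : List (List ℕ)) : Bool :=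
  allB 28 (fun k => Nat.beq (xorL T (sp.getD k [])) (Nat.pow 2 k) &&
    (sp.getD k []).all (fun j => Nat.blt j n))

theorem faithful_of_span (T n : ℕ) (sp : List (List ℕ)) (h : spanOK T n sp = true) (g : GLt)
    (hg : ∀ j < n, g • vecOf (lk T j) = vecOf (lk T j)) : g = 1 := by
  unfold spanOK at h
  rw [allB_iff] at h
  apply eq_of_basis
  intro k hk
  have h1 := h k hk
  rw [Bool.and_eq_true, beq_iff, List.all_eq_true] at h1
  obtain ⟨e, hall⟩ := h1
  have e' : xorL T (sp.getD k []) = 2 ^ k := e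
  rw [← e', fix_xorL T n g hg _ (fun j hj => (blt_iff _ _).1 (hall j hj)), one_smul]

end Cfsg.Agent.Lib.Helper61.RuLvl
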