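import Mathlib
import Cfsg.Agent.Lib.Helper61.RuLvl

set_option autoImplicit false

/-! The four levels of the stabiliser chain of the Rudvalis group (orbits 4060, 1755, 1024, 10):
tree checks, residues and the light cycle checks. -/

namespace Cfsg.Agent.Lib.Helper61.RuRes

open Cfsg.Agent.Lib.Helper61.RuFast Cfsg.Agent.Lib.Helper61.RuData
open Cfsg.Agent.Lib.Helper61.RuMain Cfsg.Agent.Lib.Helper61.RuLvl

theorem ok0 : okLvl T0 P0 rt0 4060 0 3 b0c = true := by decide +kernel

theorem ok1 : okLvl T1 P1 rt1 1755 3 6 b1c = true := by decide +kernel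

theorem ok2 : okLvl T2 P2 rt2 1024 6 9 b2c = true := by decide +kernel

theorem ok3 : okLvl T3 P3 rt3 10 9 12 b3c = true := by decide +kernel

theorem lv0 : LvlOK T0 P0 rt0 4060 0 3 b0c := lvlOK_of ok0

theorem lv1 : LvlOK T1 P1 rt1 1755 3 6 b1c := lvlOK_of ok1

theorem lv2 : LvlOK T2 P2 rt2 1024 6 9 b2c := lvlOK_of ok2

theorem lv3 : LvlOK T3 P3 rt3 10 9 12 b3c := lvlOK_of ok3

/-- residues of the bottom level: none. -/
def r3ok : ℕ → Bool := fun _ => true

def r3l : ℕ → List ℕ := fun _ => basis

/-- residues of level 2: a representative of the bottom level. -/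
def r2ok : ℕ → Bool := fun e => Nat.blt (f3 e) 10

noncomputable def r2l : ℕ → List ℕ := fun e => fmvWL ttab (uw P3 (dp P3 (f3 e)) (f3 e)) basis

/-- residues of level 1: representatives of levels 2 and 3. -/
def r1ok : ℕ → Bool := fun e => Nat.blt (f2 e) 1024 && Nat.blt (f3 e) 10

noncomputable def r1l : ℕ → List ℕ := fun e =>
  fmvWL ttab (uw P2 (dp P2 (f2 e)) (f2 e)) (r2l e)

/-- residues of the top level: a power of the letter 12 and representatives of levels 1, 2, 3. -/
def r0ok : ℕ → Bool := fun e => Nat.blt (f1 e) 1755 && (Nat.blt (f2 e) 1024 && Nat.blt (f3 e) 10)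

noncomputable def r0l : ℕ → List ℕ := fun e =>
  fmvWL ttab (cond (fe e) [12] []) (fmvWL ttab (uw P1 (dp P1 (f1 e)) (f1 e)) (r1l e))

theorem cb0a : allB 4060 (fun j => sokB Hn0a 4060 1 j) = true := by decide +kernel

theorem cb0b : allB 4060 (fun j => sokB Hn0b 4060 2 j) = true := by decide +kernel

theorem cb1a : allB 1755 (fun j => sokB Hn1a 1755 1 j) = true := by decide +kernel

theorem cb1b : allB 1755 (fun j => sokB Hn1b 1755 2 j) = true := by decide +kernel

theorem cb2a : allB 1024 (fun j => sokB Hn2a 1024 1 j) = true := by decide +kernel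

theorem cb2b : allB 1024 (fun j => sokB Hn2b 1024 3 j) = true := by decide +kernel

theorem cb3a : allB 10 (fun j => sokB Hn3a 10 4 j) = true := by decide +kernel

theorem cb3b : allB 10 (fun j => sokB Hn3b 10 1 j) = true := by decide +kernel

end Cfsg.Agent.Lib.Helper61.RuRes
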