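import Mathlib
import Cfsg.Agent.Lib.Helper61.RuRes

set_option autoImplicit false

/-! Generated: Schreier generator checks for the stabiliser chain of the Rudvalis group
(level 0, generator letter 0, nodes 0 to 3098). -/

namespace Cfsg.Agent.Lib.Helper61.RuC0

open Cfsg.Agent.Lib.Helper61.RuFast Cfsg.Agent.Lib.Helper61.RuData
open Cfsg.Agent.Lib.Helper61.RuMain Cfsg.Agent.Lib.Helper61.RuLvl
open Cfsg.Agent.Lib.Helper61.RuRes

theorem c_0 : allB 1048 (fun k => sokA P0 rt0 4060 r0ok r0l Hn0a 0 0 (Nat.add 0 k)) = true := by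
  decide +kernel

theorem c_1 : allB 438 (fun k => sokA P0 rt0 4060 r0ok r0l Hn0a 0 0 (Nat.add 1048 k)) = true := by
  decide +kernel

theorem c_2 : allB 230 (fun k => sokA P0 rt0 4060 r0ok r0l Hn0a 0 0 (Nat.add 1486 k)) = true := by
  decide +kernel

theorem c_3 : allB 228 (fun k => sokA P0 rt0 4060 r0ok r0l Hn0a 0 0 (Nat.add 1716 k)) = true := by
  decide +kernel

theorem c_4 : allB 368 (fun k => sokA P0 rt0 4060 r0ok r0l Hn0a 0 0 (Nat.add 1944 k)) = true := by
  decide +kernel

theorem c_5 : allB 301 (fun k => sokA P0 rt0 4060 r0ok r0l Hn0a 0 0 (Nat.add 2312 k)) = true := by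
  decide +kernel

theorem c_6 : allB 184 (fun k => sokA P0 rt0 4060 r0ok r0l Hn0a 0 0 (Nat.add 2613 k)) = true := by
  decide +kernel

theorem c_7 : allB 211 (fun k => sokA P0 rt0 4060 r0ok r0l Hn0a 0 0 (Nat.add 2797 k)) = true := by
  decide +kernel

theorem c_8 : allB 90 (fun k => sokA P0 rt0 4060 r0ok r0l Hn0a 0 0 (Nat.add 3008 k)) = true := by
  decide +kernel

theorem seg : ∀ j, 0 ≤ j → j < 3098 → sokA P0 rt0 4060 r0ok r0l Hn0a 0 0 j = true := by
  intro j h1 h2
  by_cases d0 : j < 1048
  · exact allB_range c_0 j (by omega) (by omega)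
  by_cases d1 : j < 1486
  · exact allB_range c_1 j (by omega) (by omega)
  by_cases d2 : j < 1716
  · exact allB_range c_2 j (by omega) (by omega)
  by_cases d3 : j < 1944
  · exact allB_range c_3 j (by omega) (by omega)
  by_cases d4 : j < 2312
  · exact allB_range c_4 j (by omega) (by omega)
  by_cases d5 : j < 2613
  · exact allB_range c_5 j (by omega) (by omega)
  by_cases d6 : j < 2797
  · exact allB_range c_6 j (by omega) (by omega)
  by_cases d7 : j < 3008
  · exact allB_range c_7 j (by omega) (by omega)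
  exact allB_range c_8 j (by omega) (by omega)

end Cfsg.Agent.Lib.Helper61.RuC0
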