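import Mathlib
import Cfsg.Agent.Lib.Helper61.RuRes

set_option autoImplicit false

/-! Generated: Schreier generator checks for the stabiliser chain of the Rudvalis group
(level 0, generator letter 1, nodes 0 to 2586). -/

namespace Cfsg.Agent.Lib.Helper61.RuC2

open Cfsg.Agent.Lib.Helper61.RuFast Cfsg.Agent.Lib.Helper61.RuData
open Cfsg.Agent.Lib.Helper61.RuMain Cfsg.Agent.Lib.Helper61.RuLvl
open Cfsg.Agent.Lib.Helper61.RuRes

theorem c_0 : allB 838 (fun k => sokA P0 rt0 4060 r0ok r0l Hn0b 1 2 (Nat.add 0 k)) = true := by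
  decide +kernel

theorem c_1 : allB 459 (fun k => sokA P0 rt0 4060 r0ok r0l Hn0b 1 2 (Nat.add 838 k)) = true := by
  decide +kernel

theorem c_2 : allB 201 (fun k => sokA P0 rt0 4060 r0ok r0l Hn0b 1 2 (Nat.add 1297 k)) = true := by
  decide +kernel

theorem c_3 : allB 251 (fun k => sokA P0 rt0 4060 r0ok r0l Hn0b 1 2 (Nat.add 1498 k)) = true := by
  decide +kernel

theorem c_4 : allB 180 (fun k => sokA P0 rt0 4060 r0ok r0l Hn0b 1 2 (Nat.add 1749 k)) = true := by
  decide +kernel

theorem c_5 : allB 212 (fun k => sokA P0 rt0 4060 r0ok r0l Hn0b 1 2 (Nat.add 1929 k)) = true := by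
  decide +kernel

theorem c_6 : allB 201 (fun k => sokA P0 rt0 4060 r0ok r0l Hn0b 1 2 (Nat.add 2141 k)) = true := by
  decide +kernel

theorem c_7 : allB 146 (fun k => sokA P0 rt0 4060 r0ok r0l Hn0b 1 2 (Nat.add 2342 k)) = true := by
  decide +kernel

theorem c_8 : allB 98 (fun k => sokA P0 rt0 4060 r0ok r0l Hn0b 1 2 (Nat.add 2488 k)) = true := by
  decide +kernel

theorem seg : ∀ j, 0 ≤ j → j < 2586 → sokA P0 rt0 4060 r0ok r0l Hn0b 1 2 j = true := by
  intro j h1 h2
  by_cases d0 : j < 838
  · exact allB_range c_0 j (by omega) (by omega)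
  by_cases d1 : j < 1297
  · exact allB_range c_1 j (by omega) (by omega)
  by_cases d2 : j < 1498
  · exact allB_range c_2 j (by omega) (by omega)
  by_cases d3 : j < 1749
  · exact allB_range c_3 j (by omega) (by omega)
  by_cases d4 : j < 1929
  · exact allB_range c_4 j (by omega) (by omega)
  by_cases d5 : j < 2141
  · exact allB_range c_5 j (by omega) (by omega)
  by_cases d6 : j < 2342
  · exact allB_range c_6 j (by omega) (by omega)
  by_cases d7 : j < 2488
  · exact allB_range c_7 j (by omega) (by omega)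
  exact allB_range c_8 j (by omega) (by omega)

end Cfsg.Agent.Lib.Helper61.RuC2
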