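import Mathlib
import Cfsg.Agent.Lib.Helper61.RuRes

set_option autoImplicit false

/-! Generated: Schreier generator checks for the stabiliser chain of the Rudvalis group
(level 0, generator letter 1, nodes 2586 to 4060). -/

namespace Cfsg.Agent.Lib.Helper61.RuC3

open Cfsg.Agent.Lib.Helper61.RuFast Cfsg.Agent.Lib.Helper61.RuData
open Cfsg.Agent.Lib.Helper61.RuMain Cfsg.Agent.Lib.Helper61.RuLvl
open Cfsg.Agent.Lib.Helper61.RuRes

theorem c_0 : allB 229 (fun k => sokA P0 rt0 4060 r0ok r0l Hn0b 1 2 (Nat.add 2586 k)) = true := by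
  decide +kernel

theorem c_1 : allB 181 (fun k => sokA P0 rt0 4060 r0ok r0l Hn0b 1 2 (Nat.add 2815 k)) = true := by
  decide +kernel

theorem c_2 : allB 191 (fun k => sokA P0 rt0 4060 r0ok r0l Hn0b 1 2 (Nat.add 2996 k)) = true := by
  decide +kernel

theorem c_3 : allB 124 (fun k => sokA P0 rt0 4060 r0ok r0l Hn0b 1 2 (Nat.add 3187 k)) = true := by
  decide +kernel

theorem c_4 : allB 197 (fun k => sokA P0 rt0 4060 r0ok r0l Hn0b 1 2 (Nat.add 3311 k)) = true := by
  decide +kernel

theorem c_5 : allB 194 (fun k => sokA P0 rt0 4060 r0ok r0l Hn0b 1 2 (Nat.add 3508 k)) = true := by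
  decide +kernel

theorem c_6 : allB 179 (fun k => sokA P0 rt0 4060 r0ok r0l Hn0b 1 2 (Nat.add 3702 k)) = true := by
  decide +kernel

theorem c_7 : allB 126 (fun k => sokA P0 rt0 4060 r0ok r0l Hn0b 1 2 (Nat.add 3881 k)) = true := by
  decide +kernel

theorem c_8 : allB 53 (fun k => sokA P0 rt0 4060 r0ok r0l Hn0b 1 2 (Nat.add 4007 k)) = true := by
  decide +kernel

theorem seg : ∀ j, 2586 ≤ j → j < 4060 → sokA P0 rt0 4060 r0ok r0l Hn0b 1 2 j = true := by
  intro j h1 h2
  by_cases d0 : j < 2815
  · exact allB_range c_0 j (by omega) (by omega)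
  by_cases d1 : j < 2996
  · exact allB_range c_1 j (by omega) (by omega)
  by_cases d2 : j < 3187
  · exact allB_range c_2 j (by omega) (by omega)
  by_cases d3 : j < 3311
  · exact allB_range c_3 j (by omega) (by omega)
  by_cases d4 : j < 3508
  · exact allB_range c_4 j (by omega) (by omega)
  by_cases d5 : j < 3702
  · exact allB_range c_5 j (by omega) (by omega)
  by_cases d6 : j < 3881
  · exact allB_range c_6 j (by omega) (by omega)
  by_cases d7 : j < 4007
  · exact allB_range c_7 j (by omega) (by omega)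
  exact allB_range c_8 j (by omega) (by omega)

end Cfsg.Agent.Lib.Helper61.RuC3
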