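import Mathlib
import Cfsg.Agent.Lib.Helper61.RuRes

set_option autoImplicit false

/-! Generated: Schreier generator checks for the stabiliser chain of the Rudvalis group
(level 1, generator letter 3, nodes 0 to 1755). -/

namespace Cfsg.Agent.Lib.Helper61.RuC4

open Cfsg.Agent.Lib.Helper61.RuFast Cfsg.Agent.Lib.Helper61.RuData
open Cfsg.Agent.Lib.Helper61.RuMain Cfsg.Agent.Lib.Helper61.RuLvl
open Cfsg.Agent.Lib.Helper61.RuRes

theorem c_0 : allB 246 (fun k => sokA P1 rt1 1755 r1ok r1l Hn1a 3 3 (Nat.add 0 k)) = true := by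
  decide +kernel

theorem c_1 : allB 272 (fun k => sokA P1 rt1 1755 r1ok r1l Hn1a 3 3 (Nat.add 246 k)) = true := by
  decide +kernel

theorem c_2 : allB 211 (fun k => sokA P1 rt1 1755 r1ok r1l Hn1a 3 3 (Nat.add 518 k)) = true := by
  decide +kernel

theorem c_3 : allB 210 (fun k => sokA P1 rt1 1755 r1ok r1l Hn1a 3 3 (Nat.add 729 k)) = true := by
  decide +kernel

theorem c_4 : allB 172 (fun k => sokA P1 rt1 1755 r1ok r1l Hn1a 3 3 (Nat.add 939 k)) = true := by
  decide +kernel

theorem c_5 : allB 164 (fun k => sokA P1 rt1 1755 r1ok r1l Hn1a 3 3 (Nat.add 1111 k)) = true := by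
  decide +kernel

theorem c_6 : allB 105 (fun k => sokA P1 rt1 1755 r1ok r1l Hn1a 3 3 (Nat.add 1275 k)) = true := by
  decide +kernel

theorem c_7 : allB 96 (fun k => sokA P1 rt1 1755 r1ok r1l Hn1a 3 3 (Nat.add 1380 k)) = true := by
  decide +kernel

theorem c_8 : allB 127 (fun k => sokA P1 rt1 1755 r1ok r1l Hn1a 3 3 (Nat.add 1476 k)) = true := by
  decide +kernel

theorem c_9 : allB 142 (fun k => sokA P1 rt1 1755 r1ok r1l Hn1a 3 3 (Nat.add 1603 k)) = true := by
  decide +kernel

theorem c_10 : allB 10 (fun k => sokA P1 rt1 1755 r1ok r1l Hn1a 3 3 (Nat.add 1745 k)) = true := by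
  decide +kernel

theorem seg : ∀ j, 0 ≤ j → j < 1755 → sokA P1 rt1 1755 r1ok r1l Hn1a 3 3 j = true := by
  intro j h1 h2
  by_cases d0 : j < 246
  · exact allB_range c_0 j (by omega) (by omega)
  by_cases d1 : j < 518
  · exact allB_range c_1 j (by omega) (by omega)
  by_cases d2 : j < 729
  · exact allB_range c_2 j (by omega) (by omega)
  by_cases d3 : j < 939
  · exact allB_range c_3 j (by omega) (by omega)
  by_cases d4 : j < 1111
  · exact allB_range c_4 j (by omega) (by omega)
  by_cases d5 : j < 1275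
  · exact allB_range c_5 j (by omega) (by omega)
  by_cases d6 : j < 1380
  · exact allB_range c_6 j (by omega) (by omega)
  by_cases d7 : j < 1476
  · exact allB_range c_7 j (by omega) (by omega)
  by_cases d8 : j < 1603
  · exact allB_range c_8 j (by omega) (by omega)
  by_cases d9 : j < 1745
  · exact allB_range c_9 j (by omega) (by omega)
  exact allB_range c_10 j (by omega) (by omega)

end Cfsg.Agent.Lib.Helper61.RuC4
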