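import Mathlib
import Cfsg.Agent.Lib.Helper61.RuRes

set_option autoImplicit false

/-! Generated: Schreier generator checks for the stabiliser chain of the Rudvalis group
(level 1, generator letter 4, nodes 0 to 1755). -/

namespace Cfsg.Agent.Lib.Helper61.RuC5

open Cfsg.Agent.Lib.Helper61.RuFast Cfsg.Agent.Lib.Helper61.RuData
open Cfsg.Agent.Lib.Helper61.RuMain Cfsg.Agent.Lib.Helper61.RuLvl
open Cfsg.Agent.Lib.Helper61.RuRes

theorem c_0 : allB 585 (fun k => sokA P1 rt1 1755 r1ok r1l Hn1b 4 5 (Nat.add 0 k)) = true := by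
  decide +kernel

theorem c_1 : allB 280 (fun k => sokA P1 rt1 1755 r1ok r1l Hn1b 4 5 (Nat.add 585 k)) = true := by
  decide +kernel

theorem c_2 : allB 173 (fun k => sokA P1 rt1 1755 r1ok r1l Hn1b 4 5 (Nat.add 865 k)) = true := by
  decide +kernel

theorem c_3 : allB 246 (fun k => sokA P1 rt1 1755 r1ok r1l Hn1b 4 5 (Nat.add 1038 k)) = true := by
  decide +kernel

theorem c_4 : allB 189 (fun k => sokA P1 rt1 1755 r1ok r1l Hn1b 4 5 (Nat.add 1284 k)) = true := by
  decide +kernel

theorem c_5 : allB 142 (fun k => sokA P1 rt1 1755 r1ok r1l Hn1b 4 5 (Nat.add 1473 k)) = true := by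
  decide +kernel

theorem c_6 : allB 140 (fun k => sokA P1 rt1 1755 r1ok r1l Hn1b 4 5 (Nat.add 1615 k)) = true := by
  decide +kernel

theorem seg : ∀ j, 0 ≤ j → j < 1755 → sokA P1 rt1 1755 r1ok r1l Hn1b 4 5 j = true := by
  intro j h1 h2
  by_cases d0 : j < 585
  · exact allB_range c_0 j (by omega) (by omega)
  by_cases d1 : j < 865
  · exact allB_range c_1 j (by omega) (by omega)
  by_cases d2 : j < 1038
  · exact allB_range c_2 j (by omega) (by omega)
  by_cases d3 : j < 1284
  · exact allB_range c_3 j (by omega) (by omega)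
  by_cases d4 : j < 1473
  · exact allB_range c_4 j (by omega) (by omega)
  by_cases d5 : j < 1615
  · exact allB_range c_5 j (by omega) (by omega)
  exact allB_range c_6 j (by omega) (by omega)

end Cfsg.Agent.Lib.Helper61.RuC5
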