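import Mathlib
import Cfsg.Agent.Lib.Helper61.RuRes

set_option autoImplicit false

/-! Generated: Schreier generator checks for the stabiliser chain of the Rudvalis group
(level 2, generator letter 6, nodes 0 to 1024). -/

namespace Cfsg.Agent.Lib.Helper61.RuC6

open Cfsg.Agent.Lib.Helper61.RuFast Cfsg.Agent.Lib.Helper61.RuData
open Cfsg.Agent.Lib.Helper61.RuMain Cfsg.Agent.Lib.Helper61.RuLvl
open Cfsg.Agent.Lib.Helper61.RuRes

theorem c_0 : allB 191 (fun k => sokA P2 rt2 1024 r2ok r2l Hn2a 6 6 (Nat.add 0 k)) = true := by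
  decide +kernel

theorem c_1 : allB 186 (fun k => sokA P2 rt2 1024 r2ok r2l Hn2a 6 6 (Nat.add 191 k)) = true := by
  decide +kernel

theorem c_2 : allB 130 (fun k => sokA P2 rt2 1024 r2ok r2l Hn2a 6 6 (Nat.add 377 k)) = true := by
  decide +kernel

theorem c_3 : allB 133 (fun k => sokA P2 rt2 1024 r2ok r2l Hn2a 6 6 (Nat.add 507 k)) = true := by
  decide +kernel

theorem c_4 : allB 88 (fun k => sokA P2 rt2 1024 r2ok r2l Hn2a 6 6 (Nat.add 640 k)) = true := by
  decide +kernel

theorem c_5 : allB 61 (fun k => sokA P2 rt2 1024 r2ok r2l Hn2a 6 6 (Nat.add 728 k)) = true := by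
  decide +kernel

theorem c_6 : allB 63 (fun k => sokA P2 rt2 1024 r2ok r2l Hn2a 6 6 (Nat.add 789 k)) = true := by
  decide +kernel

theorem c_7 : allB 82 (fun k => sokA P2 rt2 1024 r2ok r2l Hn2a 6 6 (Nat.add 852 k)) = true := by
  decide +kernel

theorem c_8 : allB 58 (fun k => sokA P2 rt2 1024 r2ok r2l Hn2a 6 6 (Nat.add 934 k)) = true := by
  decide +kernel

theorem c_9 : allB 32 (fun k => sokA P2 rt2 1024 r2ok r2l Hn2a 6 6 (Nat.add 992 k)) = true := by
  decide +kernel

theorem seg : ∀ j, 0 ≤ j → j < 1024 → sokA P2 rt2 1024 r2ok r2l Hn2a 6 6 j = true := by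
  intro j h1 h2
  by_cases d0 : j < 191
  · exact allB_range c_0 j (by omega) (by omega)
  by_cases d1 : j < 377
  · exact allB_range c_1 j (by omega) (by omega)
  by_cases d2 : j < 507
  · exact allB_range c_2 j (by omega) (by omega)
  by_cases d3 : j < 640
  · exact allB_range c_3 j (by omega) (by omega)
  by_cases d4 : j < 728
  · exact allB_range c_4 j (by omega) (by omega)
  by_cases d5 : j < 789
  · exact allB_range c_5 j (by omega) (by omega)
  by_cases d6 : j < 852
  · exact allB_range c_6 j (by omega) (by omega)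
  by_cases d7 : j < 934
  · exact allB_range c_7 j (by omega) (by omega)
  by_cases d8 : j < 992
  · exact allB_range c_8 j (by omega) (by omega)
  exact allB_range c_9 j (by omega) (by omega)

end Cfsg.Agent.Lib.Helper61.RuC6
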