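import Mathlib
import Cfsg.Agent.Lib.Helper61.RuRes

set_option autoImplicit false

/-! Generated: Schreier generator checks for the stabiliser chain of the Rudvalis group
(level 2, generator letter 7, nodes 0 to 1024). -/

namespace Cfsg.Agent.Lib.Helper61.RuC7

open Cfsg.Agent.Lib.Helper61.RuFast Cfsg.Agent.Lib.Helper61.RuData
open Cfsg.Agent.Lib.Helper61.RuMain Cfsg.Agent.Lib.Helper61.RuLvl
open Cfsg.Agent.Lib.Helper61.RuRes

theorem c_0 : allB 344 (fun k => sokA P2 rt2 1024 r2ok r2l Hn2b 7 8 (Nat.add 0 k)) = true := by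
  decide +kernel

theorem c_1 : allB 188 (fun k => sokA P2 rt2 1024 r2ok r2l Hn2b 7 8 (Nat.add 344 k)) = true := by
  decide +kernel

theorem c_2 : allB 188 (fun k => sokA P2 rt2 1024 r2ok r2l Hn2b 7 8 (Nat.add 532 k)) = true := by
  decide +kernel

theorem c_3 : allB 143 (fun k => sokA P2 rt2 1024 r2ok r2l Hn2b 7 8 (Nat.add 720 k)) = true := by
  decide +kernel

theorem c_4 : allB 161 (fun k => sokA P2 rt2 1024 r2ok r2l Hn2b 7 8 (Nat.add 863 k)) = true := by
  decide +kernel

theorem seg : ∀ j, 0 ≤ j → j < 1024 → sokA P2 rt2 1024 r2ok r2l Hn2b 7 8 j = true := by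
  intro j h1 h2
  by_cases d0 : j < 344
  · exact allB_range c_0 j (by omega) (by omega)
  by_cases d1 : j < 532
  · exact allB_range c_1 j (by omega) (by omega)
  by_cases d2 : j < 720
  · exact allB_range c_2 j (by omega) (by omega)
  by_cases d3 : j < 863
  · exact allB_range c_3 j (by omega) (by omega)
  exact allB_range c_4 j (by omega) (by omega)

end Cfsg.Agent.Lib.Helper61.RuC7
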