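import Mathlib
import Cfsg.Agent.Lib.Helper61.RuRes

set_option autoImplicit false

/-! Generated: Schreier generator checks for the stabiliser chain of the Rudvalis group
(level 3, generator letter 11, nodes 0 to 10). -/

namespace Cfsg.Agent.Lib.Helper61.RuC9

open Cfsg.Agent.Lib.Helper61.RuFast Cfsg.Agent.Lib.Helper61.RuData
open Cfsg.Agent.Lib.Helper61.RuMain Cfsg.Agent.Lib.Helper61.RuLvl
open Cfsg.Agent.Lib.Helper61.RuRes

theorem c_0 : allB 10 (fun k => sokA P3 rt3 10 r3ok r3l Hn3b 11 11 (Nat.add 0 k)) = true := by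
  decide +kernel

theorem seg : ∀ j, 0 ≤ j → j < 10 → sokA P3 rt3 10 r3ok r3l Hn3b 11 11 j = true := by
  intro j h1 h2
  exact allB_range c_0 j (by omega) (by omega)

end Cfsg.Agent.Lib.Helper61.RuC9
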