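import Mathlib
import Cfsg.Agent.Lib.Helper61.RuId
import Cfsg.Agent.Lib.Helper61.RuC0
import Cfsg.Agent.Lib.Helper61.RuC1
import Cfsg.Agent.Lib.Helper61.RuC2
import Cfsg.Agent.Lib.Helper61.RuC3
import Cfsg.Agent.Lib.Helper61.RuC4
import Cfsg.Agent.Lib.Helper61.RuC5
import Cfsg.Agent.Lib.Helper61.RuC6
import Cfsg.Agent.Lib.Helper61.RuC7
import Cfsg.Agent.Lib.Helper61.RuC8
import Cfsg.Agent.Lib.Helper61.RuC9
import Cfsg.Agent.Lib.Helper61.TitsSS

set_option autoImplicit false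

/-! The Rudvalis group as the subgroup `M = ⟨a, b⟩` of `GL_28(F_2)`, with its stabiliser chain
(orbits 4060, then index 2, then 1755, 1024, 10 for the Tits subgroup `K`), and the orders. -/

namespace Cfsg.Agent.Lib.Helper61.RuGrp

open Cfsg.Agent.Lib.Helper61.RuFast Cfsg.Agent.Lib.Helper61.RuData
open Cfsg.Agent.Lib.Helper61.RuMain Cfsg.Agent.Lib.Helper61.RuLvl
open Cfsg.Agent.Lib.Helper61.RuRes Cfsg.Agent.Lib.Helper61.RuId

attribute [local instance] actGL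

/-- the order of a closure with one more generator normalising it, of square inside, not inside. -/
theorem card_index_two {Γ : Type*} [Group Γ] [Finite Γ] (x1 x2 c : Γ)
    (h1 : c⁻¹ * x1 * c ∈ Subgroup.closure {x1, x2})
    (h2 : c⁻¹ * x2 * c ∈ Subgroup.closure {x1, x2})
    (h3 : c * c ∈ Subgroup.closure {x1, x2}) (hc : c ∉ Subgroup.closure {x1, x2}) :
    Nat.card ↥(Subgroup.closure {x1, x2, c}) = 2 * Nat.card ↥(Subgroup.closure {x1, x2}) := by
  set N : Subgroup Γ := Subgroup.closure {x1, x2} with hN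
  have hx1 : x1 ∈ N := Subgroup.subset_closure (Set.mem_insert _ _)
  have hx2 : x2 ∈ N := Subgroup.subset_closure (Set.mem_insert_of_mem _ rfl)
  have hle : N ≤ Subgroup.closure {x1, x2, c} := by
    rw [hN]
    apply Subgroup.closure_mono
    intro y hy
    rcases hy with rfl | rfl
    · exact Set.mem_insert _ _
    · exact Set.mem_insert_of_mem _ (Set.mem_insert _ _)
  have hcm : c ∈ Subgroup.closure {x1, x2, c} :=
    Subgroup.subset_closure (Set.mem_insert_of_mem _ (Set.mem_insert_of_mem _ rfl))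
  let u : ℕ → Γ := fun j => if j = 1 then c else 1
  have hu0 : u 0 = 1 := rfl
  have hu1 : u 1 = c := rfl
  refine TitsSS.card {x1, x2, c} N 2 u 0 (by norm_num) hu0 ?_ ((1 : Γ) : Γ ⧸ N) ?_ ?_ ?_ hle
  · rintro s (rfl | rfl | rfl) j hj
    · interval_cases j
      · exact ⟨0, by norm_num, s, hx1, by rw [hu0, mul_one, one_mul]⟩
      · exact ⟨1, by norm_num, c⁻¹ * s * c, h1, by rw [hu1]; group⟩
    · interval_cases j
      · exact ⟨0, by norm_num, s, hx2, by rw [hu0, mul_one, one_mul]⟩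
      · exact ⟨1, by norm_num, c⁻¹ * s * c, h2, by rw [hu1]; group⟩
    · interval_cases j
      · exact ⟨1, by norm_num, 1, N.one_mem, by rw [hu0, hu1]⟩
      · exact ⟨0, by norm_num, s * s, h3, by rw [hu0, hu1, one_mul]⟩
  · intro h hh
    rw [MulAction.Quotient.smul_coe, smul_eq_mul, mul_one, QuotientGroup.eq, mul_one, inv_mem_iff]
    exact hh
  · intro i hi j hj e
    interval_cases i <;> interval_cases j
    · rfl
    · exfalso
      rw [hu0, hu1, one_smul, MulAction.Quotient.smul_coe, smul_eq_mul, mul_one, QuotientGroup.eq,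
        inv_one, one_mul] at e
      exact hc e
    · exfalso
      rw [hu0, hu1, one_smul, MulAction.Quotient.smul_coe, smul_eq_mul, mul_one, QuotientGroup.eq,
        mul_one, inv_mem_iff] at e
      exact hc e
    · rfl
  · intro j hj
    interval_cases j
    · rw [hu0]; exact Subgroup.one_mem _
    · rw [hu1]; exact hcm

/-- the Rudvalis group. -/
def M : Subgroup GLt := Subgroup.closure {tlU 0, tlU 1}

/-- the Tits group. -/
def K : Subgroup GLt := Subgroup.closure {tlU 3, tlU 4}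

/-- the stabiliser of the first base point in the Rudvalis group. -/
def H1 : Subgroup GLt := Subgroup.closure {tlU 3, tlU 4, tlU 12}

/-- the stabiliser of the second base point in the Tits group. -/
def K2 : Subgroup GLt := Subgroup.closure {tlU 6, tlU 7}

/-- the stabiliser of the third base point. -/
def K3 : Subgroup GLt := Subgroup.closure {tlU 9, tlU 11}

theorem inv_letter (l : ℕ) (h : l < 14) : tlU (tinv l) = (tlU l)⁻¹ :=
  eq_inv_of_mul_eq_one_right (tlU_inv l h)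

theorem tinv_tab : tinv 0 = 0 ∧ tinv 1 = 2 ∧ tinv 3 = 3 ∧ tinv 4 = 5 ∧ tinv 6 = 6 ∧ tinv 7 = 8 ∧
    tinv 9 = 10 ∧ tinv 11 = 11 ∧ tinv 12 = 13 := by decide +kernel

theorem inv0 : tlU 0 * tlU 0 = 1 := tlU_inv 0 (by norm_num)

theorem inv1 : tlU 1 * tlU 2 = 1 := tlU_inv 1 (by norm_num)

theorem inv3 : tlU 3 * tlU 3 = 1 := tlU_inv 3 (by norm_num)

theorem inv4 : tlU 4 * tlU 5 = 1 := tlU_inv 4 (by norm_num)

theorem inv6 : tlU 6 * tlU 6 = 1 := tlU_inv 6 (by norm_num)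

theorem inv7 : tlU 7 * tlU 8 = 1 := tlU_inv 7 (by norm_num)

theorem inv9 : tlU 9 * tlU 10 = 1 := tlU_inv 9 (by norm_num)

theorem inv11 : tlU 11 * tlU 11 = 1 := tlU_inv 11 (by norm_num)

theorem inv12 : tlU 12 * tlU 13 = 1 := tlU_inv 12 (by norm_num)

theorem e2 : tlU 2 = (tlU 1)⁻¹ := inv_letter 1 (by norm_num)

theorem e5 : tlU 5 = (tlU 4)⁻¹ := inv_letter 4 (by norm_num)

theorem e8 : tlU 8 = (tlU 7)⁻¹ := inv_letter 7 (by norm_num)

theorem e10 : tlU 10 = (tlU 9)⁻¹ := inv_letter 9 (by norm_num)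

theorem e13 : tlU 13 = (tlU 12)⁻¹ := inv_letter 12 (by norm_num)

/-! ### memberships -/

theorem m0 : tlU 0 ∈ M := Subgroup.subset_closure (Set.mem_insert _ _)

theorem m1 : tlU 1 ∈ M := Subgroup.subset_closure (Set.mem_insert_of_mem _ rfl)

theorem M_low (l : ℕ) (hl : l < 3) : tlU l ∈ M := by
  interval_cases l
  · exact m0
  · exact m1
  · rw [e2]; exact M.inv_mem m1

theorem M_low' (l : ℕ) (_ : 0 ≤ l) (h2 : l < 3) : tlU l ∈ M := M_low l h2

theorem m3 : tlU 3 ∈ M := by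
  rw [tl_eq dw3_ok]
  exact wp_mem_of M (· < 3) M_low _ (by decide +kernel)

theorem m4 : tlU 4 ∈ M := by
  rw [tl_eq dw4_ok]
  exact wp_mem_of M (· < 3) M_low _ (by decide +kernel)

theorem K_le_M : K ≤ M := by
  unfold K
  rw [Subgroup.closure_le]
  rintro g (rfl | rfl)
  · exact m3
  · exact m4

theorem k3 : tlU 3 ∈ K := Subgroup.subset_closure (Set.mem_insert _ _)

theorem k4 : tlU 4 ∈ K := Subgroup.subset_closure (Set.mem_insert_of_mem _ rfl)

theorem K_mid (l : ℕ) (h1 : 3 ≤ l) (h2 : l < 6) : tlU l ∈ K := by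
  interval_cases l
  · exact k3
  · exact k4
  · rw [e5]; exact K.inv_mem k4

theorem k6 : tlU 6 ∈ K := by
  rw [tl_eq dw6_ok]
  exact wp_mem_of K (fun l => 3 ≤ l ∧ l < 6) (fun l hl => K_mid l hl.1 hl.2) _ (by decide +kernel)

theorem k7 : tlU 7 ∈ K := by
  rw [tl_eq dw7_ok]
  exact wp_mem_of K (fun l => 3 ≤ l ∧ l < 6) (fun l hl => K_mid l hl.1 hl.2) _ (by decide +kernel)

theorem K2_le_K : K2 ≤ K := by
  unfold K2
  rw [Subgroup.closure_le]
  rintro g (rfl | rfl)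
  · exact k6
  · exact k7

theorem g6 : tlU 6 ∈ K2 := Subgroup.subset_closure (Set.mem_insert _ _)

theorem g7 : tlU 7 ∈ K2 := Subgroup.subset_closure (Set.mem_insert_of_mem _ rfl)

theorem K2_mid (l : ℕ) (h1 : 6 ≤ l) (h2 : l < 9) : tlU l ∈ K2 := by
  interval_cases l
  · exact g6
  · exact g7
  · rw [e8]; exact K2.inv_mem g7

theorem g9 : tlU 9 ∈ K2 := by
  rw [tl_eq dw9_ok]
  exact wp_mem_of K2 (fun l => 6 ≤ l ∧ l < 9) (fun l hl => K2_mid l hl.1 hl.2) _ (by decide +kernel)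

theorem g11 : tlU 11 ∈ K2 := by
  rw [tl_eq dw11_ok]
  exact wp_mem_of K2 (fun l => 6 ≤ l ∧ l < 9) (fun l hl => K2_mid l hl.1 hl.2) _ (by decide +kernel)

theorem K3_le_K2 : K3 ≤ K2 := by
  unfold K3
  rw [Subgroup.closure_le]
  rintro g (rfl | rfl)
  · exact g9
  · exact g11

theorem q9 : tlU 9 ∈ K3 := Subgroup.subset_closure (Set.mem_insert _ _)

theorem q11 : tlU 11 ∈ K3 := Subgroup.subset_closure (Set.mem_insert_of_mem _ rfl)

theorem K3_mid (l : ℕ) (h1 : 9 ≤ l) (h2 : l < 12) : tlU l ∈ K3 := by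
  interval_cases l
  · exact q9
  · rw [e10]; exact K3.inv_mem q9
  · exact q11

theorem K_all (l : ℕ) (h1 : 3 ≤ l) (h2 : l < 12) : tlU l ∈ K := by
  by_cases h6 : l < 6
  · exact K_mid l h1 h6
  · by_cases h9 : l < 9
    · exact K2_le_K (K2_mid l (by omega) h9)
    · exact K2_le_K (K3_le_K2 (K3_mid l (by omega) h2))

theorem M_all (l : ℕ) (h : l < 12) : tlU l ∈ M := by
  by_cases h3 : l < 3
  · exact M_low l h3
  · exact K_le_M (K_all l (by omega) h)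

theorem m12 : tlU 12 ∈ M := by
  rw [tl_eq dw12_ok]
  exact wp_mem_of M (· < 12) M_all _ (by decide +kernel)

theorem K_le_H1 : K ≤ H1 := by
  unfold K H1
  apply Subgroup.closure_mono
  intro y hy
  rcases hy with rfl | rfl
  · exact Set.mem_insert _ _
  · exact Set.mem_insert_of_mem _ (Set.mem_insert _ _)

theorem c12 : tlU 12 ∈ H1 :=
  Subgroup.subset_closure (Set.mem_insert_of_mem _ (Set.mem_insert_of_mem _ rfl))

theorem H1_le_M : H1 ≤ M := by
  unfold H1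
  rw [Subgroup.closure_le]
  rintro g (rfl | rfl | rfl)
  · exact m3
  · exact m4
  · exact m12

theorem H1_mid (l : ℕ) (h1 : 3 ≤ l) (h2 : l < 6) : tlU l ∈ H1 := K_le_H1 (K_mid l h1 h2)

/-! ### fixed points -/

theorem b0_lt : b0c < 2 ^ 28 := by decide +kernel

theorem b1_lt : b1c < 2 ^ 28 := by decide +kernel

theorem b2_lt : b2c < 2 ^ 28 := by decide +kernel

theorem b3_lt : b3c < 2 ^ 28 := by decide +kernel

theorem H1_fix : ∀ h ∈ H1, h • vecOf b0c = vecOf b0c := by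
  have : H1 ≤ MulAction.stabilizer GLt (vecOf b0c) := by
    unfold H1
    rw [Subgroup.closure_le]
    rintro g (rfl | rfl | rfl)
    · show tlU 3 • vecOf b0c = vecOf b0c
      rw [smul_code 3 _ b0_lt, fix3]
    · show tlU 4 • vecOf b0c = vecOf b0c
      rw [smul_code 4 _ b0_lt, fix4]
    · show tlU 12 • vecOf b0c = vecOf b0c
      rw [smul_code 12 _ b0_lt, fix12]
  exact fun h hh => this hh

theorem K2_fix : ∀ h ∈ K2, h • vecOf b1c = vecOf b1c := by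
  have : K2 ≤ MulAction.stabilizer GLt (vecOf b1c) := by
    unfold K2
    rw [Subgroup.closure_le]
    rintro g (rfl | rfl)
    · show tlU 6 • vecOf b1c = vecOf b1c
      rw [smul_code 6 _ b1_lt, fix6]
    · show tlU 7 • vecOf b1c = vecOf b1c
      rw [smul_code 7 _ b1_lt, fix7]
  exact fun h hh => this hh

theorem K3_fix : ∀ h ∈ K3, h • vecOf b2c = vecOf b2c := by
  have : K3 ≤ MulAction.stabilizer GLt (vecOf b2c) := by
    unfold K3
    rw [Subgroup.closure_le]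
    rintro g (rfl | rfl)
    · show tlU 9 • vecOf b2c = vecOf b2c
      rw [smul_code 9 _ b2_lt, fix9]
    · show tlU 11 • vecOf b2c = vecOf b2c
      rw [smul_code 11 _ b2_lt, fix11]
  exact fun h hh => this hh

/-! ### powers -/

theorem p0 : tlU 0 ^ (1 + 1) = 1 := by rw [pow_succ, pow_one]; exact inv0

theorem p1 : tlU 1 ^ (2 + 1) = 1 := tl_pow pow1

theorem p3 : tlU 3 ^ (1 + 1) = 1 := by rw [pow_succ, pow_one]; exact inv3

theorem p4 : tlU 4 ^ (2 + 1) = 1 := tl_pow pow4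

theorem p6 : tlU 6 ^ (1 + 1) = 1 := by rw [pow_succ, pow_one]; exact inv6

theorem p7 : tlU 7 ^ (3 + 1) = 1 := tl_pow pow7

theorem p9 : tlU 9 ^ (4 + 1) = 1 := tl_pow pow9

theorem p11 : tlU 11 ^ (1 + 1) = 1 := by rw [pow_succ, pow_one]; exact inv11

/-! ### level 3 -/

theorem hres3 : ∀ e, r3ok e = true →
    ∃ w, wp tlU w ∈ (⊥ : Subgroup GLt) ∧ r3l e = fmvWL ttab w basis :=
  fun _ _ => ⟨[], Subgroup.one_mem _, rfl⟩

theorem hS3 : ∀ s ∈ ({tlU 9, tlU 11} : Set GLt), ∀ j < 10, ∃ j' < 10,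
    ∃ h ∈ (⊥ : Subgroup GLt), s * U P3 j = U P3 j' * h := by
  rintro s (rfl | rfl)
  · exact lvl_sound lv3 r3ok r3l ⊥ hres3 Hn3a 9 10 inv9 4 p9
      (fun j hj => RuC8.seg j (Nat.zero_le _) hj) cb3a (by norm_num)
  · exact lvl_sound lv3 r3ok r3l ⊥ hres3 Hn3b 11 11 inv11 1 p11
      (fun j hj => RuC9.seg j (Nat.zero_le _) hj) cb3b (by norm_num)

theorem stab3 : ∀ g ∈ K3, g • vecOf b3c = vecOf b3c → g = 1 := by
  intro g hg hgb
  have := TitsSS.stab {tlU 9, tlU 11} ⊥ 10 (U P3) rt3 lv3.rt_lt lv3.U_rt hS3 (vecOf b3c)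
    (fun h hh => by rw [Subgroup.mem_bot.1 hh, one_smul]) lv3.U_inj g hg hgb
  exact Subgroup.mem_bot.1 this

theorem orbit3 : ∀ g ∈ K3, ∃ j < 10, g • vecOf b3c = vecOf (lk T3 j) := by
  intro g hg
  obtain ⟨j, hj, e⟩ := TitsSS.orbit {tlU 9, tlU 11} ⊥ 10 (U P3) rt3 lv3.rt_lt lv3.U_rt hS3
    (vecOf b3c) (fun h hh => by rw [Subgroup.mem_bot.1 hh, one_smul]) g hg
  exact ⟨j, hj, by rw [e, ← lv3.U_pt j hj]⟩

theorem card3 : Nat.card ↥K3 = 10 := by
  have := TitsSS.card {tlU 9, tlU 11} ⊥ 10 (U P3) rt3 lv3.rt_lt lv3.U_rt hS3 (vecOf b3c)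
    (fun h hh => by rw [Subgroup.mem_bot.1 hh, one_smul]) lv3.U_inj
    (lv3.U_mem K3 K3_mid) bot_le
  rw [Subgroup.card_bot, mul_one] at this
  exact this

/-! ### level 2 -/

theorem hres2 : ∀ e, r2ok e = true →
    ∃ w, wp tlU w ∈ K3 ∧ r2l e = fmvWL ttab w basis :=
  fun e h => ⟨uw P3 (dp P3 (f3 e)) (f3 e), lv3.U_mem K3 K3_mid _ ((blt_iff _ _).1 h), rfl⟩

theorem hS2 : ∀ s ∈ ({tlU 6, tlU 7} : Set GLt), ∀ j < 1024, ∃ j' < 1024,
    ∃ h ∈ K3, s * U P2 j = U P2 j' * h := by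
  rintro s (rfl | rfl)
  · exact lvl_sound lv2 r2ok r2l K3 hres2 Hn2a 6 6 inv6 1 p6
      (fun j hj => RuC6.seg j (Nat.zero_le _) hj) cb2a (by norm_num)
  · exact lvl_sound lv2 r2ok r2l K3 hres2 Hn2b 7 8 inv7 3 p7
      (fun j hj => RuC7.seg j (Nat.zero_le _) hj) cb2b (by norm_num)

theorem stab2 : ∀ g ∈ K2, g • vecOf b2c = vecOf b2c → g ∈ K3 :=
  TitsSS.stab {tlU 6, tlU 7} K3 1024 (U P2) rt2 lv2.rt_lt lv2.U_rt hS2 (vecOf b2c)
    K3_fix lv2.U_inj

theorem card2 : Nat.card ↥K2 = 1024 * 10 := by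
  have := TitsSS.card {tlU 6, tlU 7} K3 1024 (U P2) rt2 lv2.rt_lt lv2.U_rt hS2 (vecOf b2c)
    K3_fix lv2.U_inj (lv2.U_mem K2 K2_mid) K3_le_K2
  rw [card3] at this
  exact this

/-! ### level 1: the Tits group -/

theorem hres1 : ∀ e, r1ok e = true →
    ∃ w, wp tlU w ∈ K2 ∧ r1l e = fmvWL ttab w basis := by
  intro e h
  unfold r1ok at h
  rw [Bool.and_eq_true, blt_iff, blt_iff] at h
  refine ⟨uw P2 (dp P2 (f2 e)) (f2 e) ++ uw P3 (dp P3 (f3 e)) (f3 e), ?_,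
    (fmvWL_append _ _ _ _).symm⟩
  rw [wp_append]
  exact K2.mul_mem (lv2.U_mem K2 K2_mid _ h.1) (K3_le_K2 (lv3.U_mem K3 K3_mid _ h.2))

theorem hS1 : ∀ s ∈ ({tlU 3, tlU 4} : Set GLt), ∀ j < 1755, ∃ j' < 1755,
    ∃ h ∈ K2, s * U P1 j = U P1 j' * h := by
  rintro s (rfl | rfl)
  · exact lvl_sound lv1 r1ok r1l K2 hres1 Hn1a 3 3 inv3 1 p3
      (fun j hj => RuC4.seg j (Nat.zero_le _) hj) cb1a (by norm_num)
  · exact lvl_sound lv1 r1ok r1l K2 hres1 Hn1b 4 5 inv4 2 p4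
      (fun j hj => RuC5.seg j (Nat.zero_le _) hj) cb1b (by norm_num)

theorem cover1 : ∀ g ∈ K, ∃ j < 1755, ∃ h ∈ K2, g = U P1 j * h :=
  TitsSS.cover {tlU 3, tlU 4} K2 1755 (U P1) rt1 lv1.rt_lt lv1.U_rt hS1

theorem orbit1 : ∀ g ∈ K, ∃ j < 1755, g • vecOf b1c = vecOf (lk T1 j) := by
  intro g hg
  obtain ⟨j, hj, e⟩ := TitsSS.orbit {tlU 3, tlU 4} K2 1755 (U P1) rt1 lv1.rt_lt lv1.U_rt hS1
    (vecOf b1c) K2_fix g hg
  exact ⟨j, hj, by rw [e, ← lv1.U_pt j hj]⟩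

theorem stab1 : ∀ g ∈ K, g • vecOf b1c = vecOf b1c → g ∈ K2 :=
  TitsSS.stab {tlU 3, tlU 4} K2 1755 (U P1) rt1 lv1.rt_lt lv1.U_rt hS1 (vecOf b1c)
    K2_fix lv1.U_inj

theorem cardK : Nat.card ↥K = 17971200 := by
  have := TitsSS.card {tlU 3, tlU 4} K2 1755 (U P1) rt1 lv1.rt_lt lv1.U_rt hS1 (vecOf b1c)
    K2_fix lv1.U_inj (lv1.U_mem K K_mid) K2_le_K
  rw [card2] at this
  exact this

theorem U1_mem (j : ℕ) (hj : j < 1755) : U P1 j ∈ K := lv1.U_mem K K_mid j hj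

theorem pt1_eq (j : ℕ) (hj : j < 1755) : vecOf (lk T1 j) = U P1 j • vecOf b1c := lv1.U_pt j hj

theorem pt_rt1 : lk T1 0 = b1c := lv1.rt_pt

/-! ### the index two step -/

theorem c_notin : tlU 12 ∉ K := by
  intro h
  have h2 : tlU 12 ∈ K2 := stab1 _ h (by rw [smul_code 12 _ b1_lt, cfix1])
  have h3 : tlU 12 ∈ K3 := stab2 _ h2 (by rw [smul_code 12 _ b2_lt, cfix2])
  obtain ⟨j, hj, e⟩ := orbit3 _ h3
  rw [smul_code 12 _ b3_lt] at e
  have e2 := vecOf_inj_lt (fmv_lt _ _) (lk_lt _ _) e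
  have h4 := (allB_iff _ _).1 cmove j hj
  rw [e2, Nat.beq_refl] at h4
  exact Bool.noConfusion h4

theorem wK (w : List ℕ) (hw : w.all (fun l => decide (3 ≤ l ∧ l < 12)) = true) : wp tlU w ∈ K :=
  wp_mem_of K (fun l => 3 ≤ l ∧ l < 12) (fun l hl => K_all l hl.1 hl.2) w hw

theorem cardH1 : Nat.card ↥H1 = 35942400 := by
  have h1 : (tlU 12)⁻¹ * tlU 3 * tlU 12 ∈ K := by
    have := idchk_sound nrm1
    rw [wp_cons, wp_cons, wp_cons, wp_nil, mul_one, e13, ← mul_assoc] at this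
    rw [this]
    exact wK _ (by decide +kernel)
  have h2 : (tlU 12)⁻¹ * tlU 4 * tlU 12 ∈ K := by
    have := idchk_sound nrm2
    rw [wp_cons, wp_cons, wp_cons, wp_nil, mul_one, e13, ← mul_assoc] at this
    rw [this]
    exact wK _ (by decide +kernel)
  have h3 : tlU 12 * tlU 12 ∈ K := by
    have := idchk_sound csq
    rw [wp_cons, wp_cons, wp_nil, mul_one] at this
    rw [this]
    exact wK _ (by decide +kernel)
  have := card_index_two (tlU 3) (tlU 4) (tlU 12) h1 h2 h3 c_notin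
  unfold H1
  rw [this]
  show 2 * Nat.card ↥K = 35942400
  rw [cardK]

/-! ### level 0: the Rudvalis group -/

theorem hres0 : ∀ e, r0ok e = true →
    ∃ w, wp tlU w ∈ H1 ∧ r0l e = fmvWL ttab w basis := by
  intro e h
  unfold r0ok at h
  rw [Bool.and_eq_true, Bool.and_eq_true, blt_iff, blt_iff, blt_iff] at h
  refine ⟨cond (fe e) [12] [] ++ (uw P1 (dp P1 (f1 e)) (f1 e) ++
    (uw P2 (dp P2 (f2 e)) (f2 e) ++ uw P3 (dp P3 (f3 e)) (f3 e))), ?_, ?_⟩
  · rw [wp_append, wp_append, wp_append]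
    refine H1.mul_mem ?_ (K_le_H1 (K.mul_mem (lv1.U_mem K K_mid _ h.1)
      (K2_le_K (K2.mul_mem (lv2.U_mem K2 K2_mid _ h.2.1) (K3_le_K2 (lv3.U_mem K3 K3_mid _ h.2.2))))))
    cases fe e
    · exact H1.one_mem
    · show wp tlU [12] ∈ H1
      rw [wp_cons, wp_nil, mul_one]
      exact c12
  · rw [fmvWL_append, fmvWL_append, fmvWL_append]
    rfl

theorem hS0 : ∀ s ∈ ({tlU 0, tlU 1} : Set GLt), ∀ j < 4060, ∃ j' < 4060,
    ∃ h ∈ H1, s * U P0 j = U P0 j' * h := by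
  rintro s (rfl | rfl)
  · refine lvl_sound lv0 r0ok r0l H1 hres0 Hn0a 0 0 inv0 1 p0 ?_ cb0a (by norm_num)
    intro j hj
    by_cases h1 : j < 3098
    · exact RuC0.seg j (Nat.zero_le _) h1
    · exact RuC1.seg j (by omega) hj
  · refine lvl_sound lv0 r0ok r0l H1 hres0 Hn0b 1 2 inv1 2 p1 ?_ cb0b (by norm_num)
    intro j hj
    by_cases h1 : j < 2586
    · exact RuC2.seg j (Nat.zero_le _) h1
    · exact RuC3.seg j (by omega) hj

theorem orbit0 : ∀ g ∈ M, ∃ j < 4060, g • vecOf b0c = vecOf (lk T0 j) := by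
  intro g hg
  obtain ⟨j, hj, e⟩ := TitsSS.orbit {tlU 0, tlU 1} H1 4060 (U P0) rt0 lv0.rt_lt lv0.U_rt hS0
    (vecOf b0c) H1_fix g hg
  exact ⟨j, hj, by rw [e, ← lv0.U_pt j hj]⟩

theorem stab0 : ∀ g ∈ M, g • vecOf b0c = vecOf b0c → g ∈ H1 :=
  TitsSS.stab {tlU 0, tlU 1} H1 4060 (U P0) rt0 lv0.rt_lt lv0.U_rt hS0 (vecOf b0c)
    H1_fix lv0.U_inj

theorem cardM : Nat.card ↥M = 145926144000 := by
  have := TitsSS.card {tlU 0, tlU 1} H1 4060 (U P0) rt0 lv0.rt_lt lv0.U_rt hS0 (vecOf b0c)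
    H1_fix lv0.U_inj (lv0.U_mem M M_low') H1_le_M
  rw [cardH1] at this
  exact this

theorem U0_mem (j : ℕ) (hj : j < 4060) : U P0 j ∈ M := lv0.U_mem M M_low' j hj

theorem pt0_eq (j : ℕ) (hj : j < 4060) : vecOf (lk T0 j) = U P0 j • vecOf b0c := lv0.U_pt j hj

theorem pt_rt0 : lk T0 3611 = b0c := lv0.rt_pt

end Cfsg.Agent.Lib.Helper61.RuGrp
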