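import Mathlib

set_option autoImplicit false

/-! A faithful action of a group on an orbit of `n` points gives a transitive subgroup of
`Perm (Fin n)` isomorphic to the group, in which a subgroup fixing the base point sits inside the
stabiliser of `0`. -/

namespace Cfsg.Agent.Lib.Helper61.RuPerm

open MulAction

/-- an equivalence of a type of cardinality `n` with `Fin n` sending a given point to `0`. -/
theorem exists_equiv_fin {α : Type*} (n : ℕ) [NeZero n] (h : Nat.card α = n) (a : α) :
    ∃ e : α ≃ Fin n, e a = 0 := by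
  have hfin : Finite α := Nat.finite_of_card_ne_zero (by rw [h]; exact NeZero.ne n)
  let e0 : α ≃ Fin n := Finite.equivFinOfCardEq h
  exact ⟨e0.trans (Equiv.swap (e0 a) 0), by simp⟩

theorem perm_realization {M : Type*} [Group M] {Ω : Type*} [MulAction M Ω]
    (ω : Ω) (n : ℕ) [NeZero n] (hn : (orbit M ω).ncard = n)
    (hfaith : ∀ g : M, (∀ x ∈ orbit M ω, g • x = x) → g = 1)
    (K : Subgroup M) (hK : ∀ k ∈ K, k • ω = ω) :
    ∃ H : Subgroup (Equiv.Perm (Fin n)), Nonempty (M ≃* H) ∧ IsPretransitive H (Fin n) ∧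
      ∃ T : Subgroup (stabilizer H (0 : Fin n)), Nonempty (K ≃* T) := by
  have hcard : Nat.card (orbit M ω) = n := by rw [Nat.card_coe_set_eq, hn]
  obtain ⟨e, he⟩ := exists_equiv_fin n hcard (⟨ω, mem_orbit_self ω⟩ : orbit M ω)
  let φ : M →* Equiv.Perm (Fin n) :=
    { toFun := fun g => e.symm.trans ((MulAction.toPerm g : Equiv.Perm (orbit M ω)).trans e)
      map_one' := by
        ext i
        simp
      map_mul' := by
        intro g h
        ext i
        simp [mul_smul] }
  have hφ : ∀ g i, φ g i = e (g • e.symm i) := fun g i => rfl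
  have hinj : Function.Injective φ := by
    rw [injective_iff_map_eq_one]
    intro g hg
    apply hfaith
    intro x hx
    have h1 := hφ g (e ⟨x, hx⟩)
    rw [hg, Equiv.Perm.one_apply, Equiv.symm_apply_apply] at h1
    have h2 := e.injective h1
    have h3 := congrArg Subtype.val h2
    rw [orbit.coe_smul] at h3
    exact h3.symm
  let ψ : M ≃* φ.range := MonoidHom.ofInjective hinj
  have hψ : ∀ g, (ψ g : Equiv.Perm (Fin n)) = φ g := fun g => rfl
  refine ⟨φ.range, ⟨ψ⟩, ⟨?_⟩, ?_⟩
  · intro i j
    obtain ⟨g, hg⟩ := exists_smul_eq M (e.symm i) (e.symm j)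
    refine ⟨ψ g, ?_⟩
    show (ψ g : Equiv.Perm (Fin n)) i = j
    rw [hψ, hφ, hg, Equiv.apply_symm_apply]
  · have hle : K.map ψ.toMonoidHom ≤ stabilizer φ.range (0 : Fin n) := by
      rintro _ ⟨k, hk, rfl⟩
      rw [mem_stabilizer_iff]
      show (ψ k : Equiv.Perm (Fin n)) 0 = 0
      rw [hψ, hφ, ← he, Equiv.symm_apply_apply]
      congr 1
      apply Subtype.ext
      rw [orbit.coe_smul]
      exact hK k hk
    exact ⟨(K.map ψ.toMonoidHom).subgroupOf (stabilizer φ.range (0 : Fin n)),
      ⟨(K.equivMapOfInjective ψ.toMonoidHom ψ.injective).trans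
        (Subgroup.subgroupOfEquivOfLe hle).symm⟩⟩

end Cfsg.Agent.Lib.Helper61.RuPerm
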