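import Mathlib
import Cfsg.Agent.Lib.Helper61.RuGrp
import Cfsg.Agent.Lib.Helper61.PrimSimple

set_option autoImplicit false

/-! Simplicity of the Rudvalis group `M = ⟨a, b⟩ ≤ GL_28(F_2)` (primitive on 4060 points, with a
Sylow 29-subgroup of prime order) and of its Tits subgroup `K` (primitive on 1755 points, with a
Sylow 13-subgroup of prime order). -/

namespace Cfsg.Agent.Lib.Helper61.RuSimp

open Cfsg.Agent.Lib.Helper61.RuFast Cfsg.Agent.Lib.Helper61.RuData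
open Cfsg.Agent.Lib.Helper61.RuMain Cfsg.Agent.Lib.Helper61.RuLvl
open Cfsg.Agent.Lib.Helper61.RuRes Cfsg.Agent.Lib.Helper61.RuId
open Cfsg.Agent.Lib.Helper61.RuGrp

attribute [local instance] actGL

/-- the normal closure of an element of a subgroup is everything, once every subgroup inside,
stable under its conjugations and containing the element, is everything. -/
theorem normalClosure_top {Γ : Type*} [Group Γ] (K : Subgroup Γ) (x : Γ) (hx : x ∈ K)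
    (P : ∀ NK : Subgroup Γ, NK ≤ K → (∀ g ∈ K, ∀ n ∈ NK, g * n * g⁻¹ ∈ NK) → x ∈ NK → K ≤ NK) :
    Subgroup.normalClosure {(⟨x, hx⟩ : ↥K)} = ⊤ := by
  have hnorm : (Subgroup.normalClosure {(⟨x, hx⟩ : ↥K)}).Normal := Subgroup.normalClosure_normal
  have h1 : (Subgroup.normalClosure {(⟨x, hx⟩ : ↥K)}).map K.subtype ≤ K := by
    rintro _ ⟨n, _, rfl⟩
    exact n.2
  have h2 : ∀ g ∈ K, ∀ n ∈ (Subgroup.normalClosure {(⟨x, hx⟩ : ↥K)}).map K.subtype,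
      g * n * g⁻¹ ∈ (Subgroup.normalClosure {(⟨x, hx⟩ : ↥K)}).map K.subtype := by
    rintro g hg _ ⟨n, hn, rfl⟩
    exact ⟨⟨g, hg⟩ * n * ⟨g, hg⟩⁻¹, hnorm.conj_mem n hn ⟨g, hg⟩, rfl⟩
  have h3 : x ∈ (Subgroup.normalClosure {(⟨x, hx⟩ : ↥K)}).map K.subtype :=
    ⟨⟨x, hx⟩, Subgroup.subset_normalClosure rfl, rfl⟩
  have h4 := P _ h1 h2 h3
  rw [eq_top_iff]
  intro k _
  obtain ⟨n, hn, e⟩ := h4 k.2
  have : n = k := Subtype.ext e
  exact this ▸ hn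

/-- a letter is in a subgroup stable under conjugations: it is a conjugate of a power of a product
of two conjugates of a word of the subgroup. -/
theorem lemmaB (NK G : Subgroup GLt) (hconj : ∀ g ∈ G, ∀ n ∈ NK, g * n * g⁻¹ ∈ NK)
    (a : ℕ) (X Gw Gi Q Qi : List ℕ) (m : ℕ)
    (hx : wp tlU X ∈ NK) (hG : wp tlU Gw ∈ G) (hQ : wp tlU Q ∈ G)
    (hgi : idchk (Gw ++ Gi) [] = true) (hqi : idchk (Q ++ Qi) [] = true)
    (hmain : idchk [a] (Q ++ rep m (X ++ Gw ++ X ++ Gi) ++ Qi) = true) : tlU a ∈ NK := by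
  have e1 : wp tlU Gi = (wp tlU Gw)⁻¹ := by
    have := idchk_sound hgi
    rw [wp_append, wp_nil] at this
    exact eq_inv_of_mul_eq_one_right this
  have e2 : wp tlU Qi = (wp tlU Q)⁻¹ := by
    have := idchk_sound hqi
    rw [wp_append, wp_nil] at this
    exact eq_inv_of_mul_eq_one_right this
  have e3 := tl_eq hmain
  simp only [wp_append, wp_rep] at e3
  rw [e3, e1, e2]
  apply hconj _ hQ
  apply NK.pow_mem
  have e4 : wp tlU X * wp tlU Gw * wp tlU X * (wp tlU Gw)⁻¹ =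
      wp tlU X * (wp tlU Gw * wp tlU X * (wp tlU Gw)⁻¹) := by group
  rw [e4]
  exact NK.mul_mem hx (hconj _ hG _ hx)

theorem smul_mkM (g : GLt) (hg : g ∈ M) (v : Vt) : (⟨g, hg⟩ : ↥M) • v = g • v := rfl

theorem smul_mkK (g : GLt) (hg : g ∈ K) (v : Vt) : (⟨g, hg⟩ : ↥K) • v = g • v := rfl

theorem K_fix0 : ∀ h ∈ K, h • vecOf b0c = vecOf b0c := fun h hh => H1_fix h (K_le_H1 hh)

/-! ### the Rudvalis group -/

theorem forest0 : ∀ d j, j < 4060 → dp F0 j = d →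
    ∃ r, (r = 3611 ∨ r = 0 ∨ r = 2) ∧ ∃ h ∈ H1, vecOf (lk T0 j) = h • vecOf (lk T0 r) := by
  intro d j hj hd
  obtain ⟨r, hr, h⟩ := forest_sound T0 F0 4060 3 6 root0 H1 H1_mid forest0_ok d j hj hd
  refine ⟨r, ?_, h⟩
  unfold root0 at hr
  simpa only [Bool.or_eq_true, beq_iff, or_assoc] using hr

theorem forest1 : ∀ d j, j < 1755 → dp F1 j = d →
    ∃ r, (r = 0 ∨ r = 1 ∨ r = 6 ∨ r = 34 ∨ r = 116) ∧
      ∃ h ∈ K2, vecOf (lk T1 j) = h • vecOf (lk T1 r) := by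
  intro d j hj hd
  obtain ⟨r, hr, h⟩ := forest_sound T1 F1 1755 6 9 root1 K2 K2_mid forest1_ok d j hj hd
  refine ⟨r, ?_, h⟩
  unfold root1 at hr
  simpa only [Bool.or_eq_true, beq_iff, or_assoc] using hr

theorem H1_le_M' : H1 ≤ M := H1_le_M

theorem der0_0 (B : Set Vt) (hω : vecOf b0c ∈ B)
    (hB : ∀ g ∈ M, g • vecOf b0c ∈ B → ∀ s ∈ B, g • s ∈ B) (h0 : vecOf (lk T0 0) ∈ B) :
    vecOf (lk T0 0) ∈ B ∧ vecOf (lk T0 2) ∈ B := by
  have h3611 : vecOf (lk T0 3611) ∈ B := by rw [pt_rt0]; exact hω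
  have h2 : vecOf (lk T0 2) ∈ B :=
    blk_step lv0 M H1 M_low' H1_le_M H1_fix B hω hB 0 0 2 [5, 3, 5, 3, 4, 3, 4, 3, 5, 3, 4, 3, 4, 3, 4, 3, 5] (by norm_num)
      (wp_mem_of H1 (fun l => 3 ≤ l ∧ l < 6) (fun l hl => H1_mid l hl.1 hl.2) _ (by decide)) d0_0_0 h0 h0
  exact ⟨h0, h2⟩

theorem der0_2 (B : Set Vt) (hω : vecOf b0c ∈ B)
    (hB : ∀ g ∈ M, g • vecOf b0c ∈ B → ∀ s ∈ B, g • s ∈ B) (h2 : vecOf (lk T0 2) ∈ B) :
    vecOf (lk T0 0) ∈ B ∧ vecOf (lk T0 2) ∈ B := by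
  have h3611 : vecOf (lk T0 3611) ∈ B := by rw [pt_rt0]; exact hω
  have h3668 : vecOf (lk T0 3668) ∈ B :=
    blk_step lv0 M H1 M_low' H1_le_M H1_fix B hω hB 3611 2 3668 [4, 3, 4, 3, 4, 3, 4, 3, 4, 3, 4, 3, 5, 3, 5, 3, 4, 3] (by norm_num)
      (wp_mem_of H1 (fun l => 3 ≤ l ∧ l < 6) (fun l hl => H1_mid l hl.1 hl.2) _ (by decide)) d0_2_0 h3611 h2
  have h0 : vecOf (lk T0 0) ∈ B :=
    blk_step lv0 M H1 M_low' H1_le_M H1_fix B hω hB 3668 2 0 [5, 3, 4, 3, 5, 3, 5, 3, 5, 3, 4, 3, 5, 3, 5, 3, 4, 3] (by norm_num)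
      (wp_mem_of H1 (fun l => 3 ≤ l ∧ l < 6) (fun l hl => H1_mid l hl.1 hl.2) _ (by decide)) d0_2_1 h3668 h2
  exact ⟨h0, h2⟩

theorem der1_1 (B : Set Vt) (hω : vecOf b1c ∈ B)
    (hB : ∀ g ∈ K, g • vecOf b1c ∈ B → ∀ s ∈ B, g • s ∈ B) (h1 : vecOf (lk T1 1) ∈ B) :
    vecOf (lk T1 1) ∈ B ∧ vecOf (lk T1 6) ∈ B ∧ vecOf (lk T1 34) ∈ B ∧ vecOf (lk T1 116) ∈ B := by
  have h0 : vecOf (lk T1 0) ∈ B := by rw [pt_rt1]; exact hω
  have h6 : vecOf (lk T1 6) ∈ B :=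
    blk_step lv1 K K2 K_mid K2_le_K K2_fix B hω hB 1 1 6 [7, 6, 8] (by norm_num)
      (wp_mem_of K2 (fun l => 6 ≤ l ∧ l < 9) (fun l hl => K2_mid l hl.1 hl.2) _ (by decide)) d1_1_0 h1 h1
  have h308 : vecOf (lk T1 308) ∈ B :=
    blk_step lv1 K K2 K_mid K2_le_K K2_fix B hω hB 0 1 308 [8, 6, 7, 7, 6, 8, 6, 7, 6, 7] (by norm_num)
      (wp_mem_of K2 (fun l => 6 ≤ l ∧ l < 9) (fun l hl => K2_mid l hl.1 hl.2) _ (by decide)) d1_1_1 h0 h1
  have h116 : vecOf (lk T1 116) ∈ B :=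
    blk_step lv1 K K2 K_mid K2_le_K K2_fix B hω hB 6 308 116 [7, 6] (by norm_num)
      (wp_mem_of K2 (fun l => 6 ≤ l ∧ l < 9) (fun l hl => K2_mid l hl.1 hl.2) _ (by decide)) d1_1_2 h6 h308
  have h1160 : vecOf (lk T1 1160) ∈ B :=
    blk_step lv1 K K2 K_mid K2_le_K K2_fix B hω hB 0 116 1160 [6, 7, 7] (by norm_num)
      (wp_mem_of K2 (fun l => 6 ≤ l ∧ l < 9) (fun l hl => K2_mid l hl.1 hl.2) _ (by decide)) d1_1_3 h0 h116
  have h34 : vecOf (lk T1 34) ∈ B :=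
    blk_step lv1 K K2 K_mid K2_le_K K2_fix B hω hB 1160 116 34 [6, 7, 6, 8, 6, 7, 6, 8, 8] (by norm_num)
      (wp_mem_of K2 (fun l => 6 ≤ l ∧ l < 9) (fun l hl => K2_mid l hl.1 hl.2) _ (by decide)) d1_1_4 h1160 h116
  exact ⟨h1, h6, h34, h116⟩

theorem der1_6 (B : Set Vt) (hω : vecOf b1c ∈ B)
    (hB : ∀ g ∈ K, g • vecOf b1c ∈ B → ∀ s ∈ B, g • s ∈ B) (h6 : vecOf (lk T1 6) ∈ B) :
    vecOf (lk T1 1) ∈ B ∧ vecOf (lk T1 6) ∈ B ∧ vecOf (lk T1 34) ∈ B ∧ vecOf (lk T1 116) ∈ B := by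
  have h0 : vecOf (lk T1 0) ∈ B := by rw [pt_rt1]; exact hω
  have h731 : vecOf (lk T1 731) ∈ B :=
    blk_step lv1 K K2 K_mid K2_le_K K2_fix B hω hB 0 6 731 [7, 7, 6, 7, 6, 7, 7, 6, 7] (by norm_num)
      (wp_mem_of K2 (fun l => 6 ≤ l ∧ l < 9) (fun l hl => K2_mid l hl.1 hl.2) _ (by decide)) d1_6_0 h0 h6
  have h1 : vecOf (lk T1 1) ∈ B :=
    blk_step lv1 K K2 K_mid K2_le_K K2_fix B hω hB 731 6 1 [8, 6, 7, 6, 8, 8, 6, 8, 6, 8] (by norm_num)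
      (wp_mem_of K2 (fun l => 6 ≤ l ∧ l < 9) (fun l hl => K2_mid l hl.1 hl.2) _ (by decide)) d1_6_1 h731 h6
  have h1381 : vecOf (lk T1 1381) ∈ B :=
    blk_step lv1 K K2 K_mid K2_le_K K2_fix B hω hB 0 6 1381 [8, 6, 7, 6, 7, 6, 8, 6, 7, 6] (by norm_num)
      (wp_mem_of K2 (fun l => 6 ≤ l ∧ l < 9) (fun l hl => K2_mid l hl.1 hl.2) _ (by decide)) d1_6_2 h0 h6
  have h890 : vecOf (lk T1 890) ∈ B :=
    blk_step lv1 K K2 K_mid K2_le_K K2_fix B hω hB 0 1 890 [8, 6, 7, 6, 8] (by norm_num)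
      (wp_mem_of K2 (fun l => 6 ≤ l ∧ l < 9) (fun l hl => K2_mid l hl.1 hl.2) _ (by decide)) d1_6_3 h0 h1
  have h255 : vecOf (lk T1 255) ∈ B :=
    blk_step lv1 K K2 K_mid K2_le_K K2_fix B hω hB 0 6 255 [8, 6, 8, 6, 7, 7] (by norm_num)
      (wp_mem_of K2 (fun l => 6 ≤ l ∧ l < 9) (fun l hl => K2_mid l hl.1 hl.2) _ (by decide)) d1_6_4 h0 h6
  have h34 : vecOf (lk T1 34) ∈ B :=
    blk_step lv1 K K2 K_mid K2_le_K K2_fix B hω hB 890 255 34 [6, 8, 8] (by norm_num)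
      (wp_mem_of K2 (fun l => 6 ≤ l ∧ l < 9) (fun l hl => K2_mid l hl.1 hl.2) _ (by decide)) d1_6_5 h890 h255
  have h1715 : vecOf (lk T1 1715) ∈ B :=
    blk_step lv1 K K2 K_mid K2_le_K K2_fix B hω hB 0 34 1715 [6, 7, 7, 6] (by norm_num)
      (wp_mem_of K2 (fun l => 6 ≤ l ∧ l < 9) (fun l hl => K2_mid l hl.1 hl.2) _ (by decide)) d1_6_6 h0 h34
  have h116 : vecOf (lk T1 116) ∈ B :=
    blk_step lv1 K K2 K_mid K2_le_K K2_fix B hω hB 1381 1715 116 [8] (by norm_num)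
      (wp_mem_of K2 (fun l => 6 ≤ l ∧ l < 9) (fun l hl => K2_mid l hl.1 hl.2) _ (by decide)) d1_6_7 h1381 h1715
  exact ⟨h1, h6, h34, h116⟩

theorem der1_34 (B : Set Vt) (hω : vecOf b1c ∈ B)
    (hB : ∀ g ∈ K, g • vecOf b1c ∈ B → ∀ s ∈ B, g • s ∈ B) (h34 : vecOf (lk T1 34) ∈ B) :
    vecOf (lk T1 1) ∈ B ∧ vecOf (lk T1 6) ∈ B ∧ vecOf (lk T1 34) ∈ B ∧ vecOf (lk T1 116) ∈ B := by
  have h0 : vecOf (lk T1 0) ∈ B := by rw [pt_rt1]; exact hω
  have h1 : vecOf (lk T1 1) ∈ B :=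
    blk_step lv1 K K2 K_mid K2_le_K K2_fix B hω hB 34 34 1 [8, 8, 6, 7, 6, 8, 6, 7, 6, 7, 6] (by norm_num)
      (wp_mem_of K2 (fun l => 6 ≤ l ∧ l < 9) (fun l hl => K2_mid l hl.1 hl.2) _ (by decide)) d1_34_0 h34 h34
  have h6 : vecOf (lk T1 6) ∈ B :=
    blk_step lv1 K K2 K_mid K2_le_K K2_fix B hω hB 1 1 6 [7, 6, 8] (by norm_num)
      (wp_mem_of K2 (fun l => 6 ≤ l ∧ l < 9) (fun l hl => K2_mid l hl.1 hl.2) _ (by decide)) d1_34_1 h1 h1
  have h196 : vecOf (lk T1 196) ∈ B :=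
    blk_step lv1 K K2 K_mid K2_le_K K2_fix B hω hB 0 6 196 [7, 6, 7, 6, 8, 6] (by norm_num)
      (wp_mem_of K2 (fun l => 6 ≤ l ∧ l < 9) (fun l hl => K2_mid l hl.1 hl.2) _ (by decide)) d1_34_2 h0 h6
  have h1251 : vecOf (lk T1 1251) ∈ B :=
    blk_step lv1 K K2 K_mid K2_le_K K2_fix B hω hB 0 34 1251 [6, 8, 6, 7, 6, 7, 6, 8, 6, 7, 6] (by norm_num)
      (wp_mem_of K2 (fun l => 6 ≤ l ∧ l < 9) (fun l hl => K2_mid l hl.1 hl.2) _ (by decide)) d1_34_3 h0 h34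
  have h116 : vecOf (lk T1 116) ∈ B :=
    blk_step lv1 K K2 K_mid K2_le_K K2_fix B hω hB 1251 196 116 [8, 8, 6, 8] (by norm_num)
      (wp_mem_of K2 (fun l => 6 ≤ l ∧ l < 9) (fun l hl => K2_mid l hl.1 hl.2) _ (by decide)) d1_34_4 h1251 h196
  exact ⟨h1, h6, h34, h116⟩

theorem der1_116 (B : Set Vt) (hω : vecOf b1c ∈ B)
    (hB : ∀ g ∈ K, g • vecOf b1c ∈ B → ∀ s ∈ B, g • s ∈ B) (h116 : vecOf (lk T1 116) ∈ B) :
    vecOf (lk T1 1) ∈ B ∧ vecOf (lk T1 6) ∈ B ∧ vecOf (lk T1 34) ∈ B ∧ vecOf (lk T1 116) ∈ B := by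
  have h0 : vecOf (lk T1 0) ∈ B := by rw [pt_rt1]; exact hω
  have h34 : vecOf (lk T1 34) ∈ B :=
    blk_step lv1 K K2 K_mid K2_le_K K2_fix B hω hB 116 116 34 [6, 8, 8, 6, 8, 6, 7, 6] (by norm_num)
      (wp_mem_of K2 (fun l => 6 ≤ l ∧ l < 9) (fun l hl => K2_mid l hl.1 hl.2) _ (by decide)) d1_116_0 h116 h116
  have h1 : vecOf (lk T1 1) ∈ B :=
    blk_step lv1 K K2 K_mid K2_le_K K2_fix B hω hB 34 34 1 [8, 8, 6, 7, 6, 8, 6, 7, 6, 7, 6] (by norm_num)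
      (wp_mem_of K2 (fun l => 6 ≤ l ∧ l < 9) (fun l hl => K2_mid l hl.1 hl.2) _ (by decide)) d1_116_1 h34 h34
  have h6 : vecOf (lk T1 6) ∈ B :=
    blk_step lv1 K K2 K_mid K2_le_K K2_fix B hω hB 1 1 6 [7, 6, 8] (by norm_num)
      (wp_mem_of K2 (fun l => 6 ≤ l ∧ l < 9) (fun l hl => K2_mid l hl.1 hl.2) _ (by decide)) d1_116_2 h1 h1
  exact ⟨h1, h6, h34, h116⟩


/-- the orbit of the base point is the set of the 4060 points. -/
theorem orbit_eqM : MulAction.orbit ↥M (vecOf b0c) =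
    (fun j => vecOf (lk T0 j)) '' (↑(Finset.range 4060) : Set ℕ) := by
  ext v
  constructor
  · rintro ⟨⟨g, hg⟩, rfl⟩
    obtain ⟨j, hj, e⟩ := orbit0 g hg
    exact ⟨j, by simpa using hj, e.symm⟩
  · rintro ⟨j, hj, rfl⟩
    have hj' : j < 4060 := by simpa using hj
    exact ⟨⟨U P0 j, U0_mem j hj'⟩, (pt0_eq j hj').symm⟩

theorem orbit_ncardM : (MulAction.orbit ↥M (vecOf b0c)).ncard = 4060 := by
  rw [orbit_eqM, Set.ncard_image_of_injOn, Set.ncard_coe_finset, Finset.card_range]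
  intro i hi j hj e
  have hi' : i < 4060 := by simpa using hi
  have hj' : j < 4060 := by simpa using hj
  have e' : vecOf (lk T0 i) = vecOf (lk T0 j) := e
  rw [pt0_eq i hi', pt0_eq j hj'] at e'
  exact lv0.U_inj i hi' j hj' e'

/-- primitivity in certificate form. -/
theorem hprimM (B : Set Vt) (hω : vecOf b0c ∈ B)
    (hsub : B ⊆ MulAction.orbit ↥M (vecOf b0c))
    (hB0 : ∀ g : ↥M, g • vecOf b0c ∈ B → ∀ s ∈ B, g • s ∈ B) :
    B = {vecOf b0c} ∨ B = MulAction.orbit ↥M (vecOf b0c) := by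
  have hB : ∀ g ∈ M, g • vecOf b0c ∈ B → ∀ s ∈ B, g • s ∈ B := fun g hg => hB0 ⟨g, hg⟩
  by_cases hall : ∀ q ∈ B, q = vecOf b0c
  · left
    ext q
    constructor
    · exact fun hq => hall q hq
    · rintro rfl
      exact hω
  · right
    obtain ⟨q, hq'⟩ := not_forall.1 hall
    obtain ⟨hqB0, hq0⟩ := Classical.not_imp.1 hq'
    obtain ⟨⟨g, hg⟩, rfl⟩ := hsub hqB0
    have hqB : g • vecOf b0c ∈ B := hqB0
    have hq : g • vecOf b0c ≠ vecOf b0c := hq0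
    obtain ⟨j, hj, e⟩ := orbit0 g hg
    obtain ⟨r, hr, h, hh, e2⟩ := forest0 _ j hj rfl
    have hrB : vecOf (lk T0 r) ∈ B := by
      have := hB h⁻¹ (H1_le_M (H1.inv_mem hh))
        (by rw [H1_fix _ (H1.inv_mem hh)]; exact hω) _ hqB
      rwa [e, e2, inv_smul_smul] at this
    have hreps : vecOf (lk T0 0) ∈ B ∧ vecOf (lk T0 2) ∈ B := by
      rcases hr with rfl | rfl | rfl
      · exfalso
        apply hq
        rw [e, e2, pt_rt0, H1_fix h hh]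
      · exact der0_0 B hω hB hrB
      · exact der0_2 B hω hB hrB
    have hallpts : ∀ i < 4060, vecOf (lk T0 i) ∈ B := by
      intro i hi
      obtain ⟨r, hr, h, hh, e2⟩ := forest0 _ i hi rfl
      rw [e2]
      apply hB h (H1_le_M hh) (by rw [H1_fix _ hh]; exact hω)
      rcases hr with rfl | rfl | rfl
      · rw [pt_rt0]; exact hω
      · exact hreps.1
      · exact hreps.2
    apply Set.Subset.antisymm hsub
    rintro _ ⟨⟨g, hg⟩, rfl⟩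
    obtain ⟨j, hj, e⟩ := orbit0 g hg
    show g • vecOf b0c ∈ B
    rw [e]
    exact hallpts j hj

/-- faithfulness on the orbit: the points span. -/
theorem hfaithM (h : ↥M) (hfix : ∀ v ∈ MulAction.orbit ↥M (vecOf b0c), h • v = v) : h = 1 := by
  obtain ⟨g, hg⟩ := h
  have hpt : ∀ j < 4060, g • vecOf (lk T0 j) = vecOf (lk T0 j) := by
    intro j hj
    have := hfix (vecOf (lk T0 j)) ⟨⟨U P0 j, U0_mem j hj⟩, (pt0_eq j hj).symm⟩
    rwa [smul_mkM] at this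
  have h1 : g = 1 := faithful_of_span T0 4060 spanL span_ok g hpt
  subst h1
  rfl

theorem ab_eq : wp tlU [0, 1] = tlU 0 * tlU 1 := by
  rw [wp_cons, wp_cons, wp_nil, mul_one]

theorem xx_eq : wp tlU [3, 4] = tlU 3 * tlU 4 := by
  rw [wp_cons, wp_cons, wp_nil, mul_one]

theorem ab_pow : (tlU 0 * tlU 1) ^ 29 = 1 := by
  have := idchk_sound ab29
  rw [wp_rep, wp_nil, ab_eq] at this
  exact this

theorem xx_pow : (tlU 3 * tlU 4) ^ 13 = 1 := by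
  have := idchk_sound xx13
  rw [wp_rep, wp_nil, xx_eq] at this
  exact this

theorem ab_ne_one : tlU 0 * tlU 1 ≠ 1 := by
  intro h
  have h1 := tw_sound [0, 1] 1 (by norm_num)
  rw [ab_eq, h, one_smul] at h1
  have h2 := vecOf_inj_lt (fmvW_lt _ _ _ (by norm_num)) (by norm_num) h1
  have h3 := ab_ne
  rw [h2] at h3
  exact Bool.noConfusion h3

theorem xx_ne_one : tlU 3 * tlU 4 ≠ 1 := by
  intro h
  have h1 := tw_sound [3, 4] 1 (by norm_num)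
  rw [xx_eq, h, one_smul] at h1
  have h2 := vecOf_inj_lt (fmvW_lt _ _ _ (by norm_num)) (by norm_num) h1
  have h3 := xx_ne
  rw [h2] at h3
  exact Bool.noConfusion h3

theorem abM : tlU 0 * tlU 1 ∈ M := M.mul_mem m0 m1

theorem xxK : tlU 3 * tlU 4 ∈ K := K.mul_mem k3 k4

theorem abM_ne_one : (⟨tlU 0 * tlU 1, abM⟩ : ↥M) ≠ 1 := by
  intro h
  have h2 := congrArg Subtype.val h
  rw [Subgroup.coe_one] at h2
  exact ab_ne_one h2

theorem xxK_ne_one : (⟨tlU 3 * tlU 4, xxK⟩ : ↥K) ≠ 1 := by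
  intro h
  have h2 := congrArg Subtype.val h
  rw [Subgroup.coe_one] at h2
  exact xx_ne_one h2

instance nontrivM : Nontrivial ↥M := ⟨⟨⟨tlU 0 * tlU 1, abM⟩, 1, abM_ne_one⟩⟩

instance nontrivK : Nontrivial ↥K := ⟨⟨⟨tlU 3 * tlU 4, xxK⟩, 1, xxK_ne_one⟩⟩

instance fact29 : Fact (Nat.Prime 29) := ⟨by norm_num⟩

instance fact13 : Fact (Nat.Prime 13) := ⟨by norm_num⟩

/-- the Rudvalis group `M` is simple. -/
theorem simpleM : IsSimpleGroup ↥M := by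
  refine PrimSimple.simple_of_prim_sylow (H := ↥M) (vecOf b0c) hfaithM hprimM 29 ?_ ?_
    ⟨tlU 0 * tlU 1, abM⟩ ?_ ?_
  · rw [orbit_ncardM]
    norm_num
  · rw [cardM]
    norm_num
  · apply orderOf_eq_prime
    · apply Subtype.ext
      rw [Subgroup.coe_pow, Subgroup.coe_one]
      exact ab_pow
    · exact abM_ne_one
  · apply normalClosure_top
    intro NK _ hconj hx
    have h0 : tlU 0 ∈ NK := by
      refine lemmaB NK M hconj 0 [0, 1] lbG0 lbGi0 lbQ0 lbQi0 7 ?_ ?_ ?_ lb0_g lb0_q lb0_main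
      · rw [ab_eq]; exact hx
      · exact wp_mem_of M (· < 3) M_low _ (by decide +kernel)
      · exact wp_mem_of M (· < 3) M_low _ (by decide +kernel)
    have h1 : tlU 1 ∈ NK := by
      have := NK.mul_mem (NK.inv_mem h0) hx
      rwa [inv_mul_cancel_left] at this
    unfold M
    rw [Subgroup.closure_le]
    rintro g (rfl | rfl)
    · exact h0
    · exact h1

/-! ### the Tits group -/

theorem orbit_eqK : MulAction.orbit ↥K (vecOf b1c) =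
    (fun j => vecOf (lk T1 j)) '' (↑(Finset.range 1755) : Set ℕ) := by
  ext v
  constructor
  · rintro ⟨⟨g, hg⟩, rfl⟩
    obtain ⟨j, hj, e⟩ := orbit1 g hg
    exact ⟨j, by simpa using hj, e.symm⟩
  · rintro ⟨j, hj, rfl⟩
    have hj' : j < 1755 := by simpa using hj
    exact ⟨⟨U P1 j, U1_mem j hj'⟩, (pt1_eq j hj').symm⟩

theorem orbit_ncardK : (MulAction.orbit ↥K (vecOf b1c)).ncard = 1755 := by
  rw [orbit_eqK, Set.ncard_image_of_injOn, Set.ncard_coe_finset, Finset.card_range]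
  intro i hi j hj e
  have hi' : i < 1755 := by simpa using hi
  have hj' : j < 1755 := by simpa using hj
  have e' : vecOf (lk T1 i) = vecOf (lk T1 j) := e
  rw [pt1_eq i hi', pt1_eq j hj'] at e'
  exact lv1.U_inj i hi' j hj' e'

theorem hprimK (B : Set Vt) (hω : vecOf b1c ∈ B)
    (hsub : B ⊆ MulAction.orbit ↥K (vecOf b1c))
    (hB0 : ∀ g : ↥K, g • vecOf b1c ∈ B → ∀ s ∈ B, g • s ∈ B) :
    B = {vecOf b1c} ∨ B = MulAction.orbit ↥K (vecOf b1c) := by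
  have hB : ∀ g ∈ K, g • vecOf b1c ∈ B → ∀ s ∈ B, g • s ∈ B := fun g hg => hB0 ⟨g, hg⟩
  by_cases hall : ∀ q ∈ B, q = vecOf b1c
  · left
    ext q
    constructor
    · exact fun hq => hall q hq
    · rintro rfl
      exact hω
  · right
    obtain ⟨q, hq'⟩ := not_forall.1 hall
    obtain ⟨hqB0, hq0⟩ := Classical.not_imp.1 hq'
    obtain ⟨⟨g, hg⟩, rfl⟩ := hsub hqB0
    have hqB : g • vecOf b1c ∈ B := hqB0
    have hq : g • vecOf b1c ≠ vecOf b1c := hq0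
    obtain ⟨j, hj, e⟩ := orbit1 g hg
    obtain ⟨r, hr, h, hh, e2⟩ := forest1 _ j hj rfl
    have hrB : vecOf (lk T1 r) ∈ B := by
      have := hB h⁻¹ (K2_le_K (K2.inv_mem hh))
        (by rw [K2_fix _ (K2.inv_mem hh)]; exact hω) _ hqB
      rwa [e, e2, inv_smul_smul] at this
    have hreps : vecOf (lk T1 1) ∈ B ∧ vecOf (lk T1 6) ∈ B ∧ vecOf (lk T1 34) ∈ B ∧
        vecOf (lk T1 116) ∈ B := by
      rcases hr with rfl | rfl | rfl | rfl | rfl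
      · exfalso
        apply hq
        rw [e, e2, pt_rt1, K2_fix h hh]
      · exact der1_1 B hω hB hrB
      · exact der1_6 B hω hB hrB
      · exact der1_34 B hω hB hrB
      · exact der1_116 B hω hB hrB
    have hallpts : ∀ i < 1755, vecOf (lk T1 i) ∈ B := by
      intro i hi
      obtain ⟨r, hr, h, hh, e2⟩ := forest1 _ i hi rfl
      rw [e2]
      apply hB h (K2_le_K hh) (by rw [K2_fix _ hh]; exact hω)
      rcases hr with rfl | rfl | rfl | rfl | rfl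
      · rw [pt_rt1]; exact hω
      · exact hreps.1
      · exact hreps.2.1
      · exact hreps.2.2.1
      · exact hreps.2.2.2
    apply Set.Subset.antisymm hsub
    rintro _ ⟨⟨g, hg⟩, rfl⟩
    obtain ⟨j, hj, e⟩ := orbit1 g hg
    show g • vecOf b1c ∈ B
    rw [e]
    exact hallpts j hj

/-- faithfulness on the orbit. -/
theorem hfaithK (h : ↥K) (hfix : ∀ v ∈ MulAction.orbit ↥K (vecOf b1c), h • v = v) : h = 1 := by
  obtain ⟨g, hg⟩ := h
  have hpt : ∀ j < 1755, g • vecOf (lk T1 j) = vecOf (lk T1 j) := by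
    intro j hj
    have := hfix (vecOf (lk T1 j)) ⟨⟨U P1 j, U1_mem j hj⟩, (pt1_eq j hj).symm⟩
    rwa [smul_mkK] at this
  have h2 : g ∈ K2 := stab1 g hg (by have := hpt 0 (by norm_num); rwa [pt_rt1] at this)
  have h3 : g ∈ K3 := stab2 g h2 (by have := hpt 1 (by norm_num); rwa [b2_pt] at this)
  have h4 : g = 1 := stab3 g h3 (by have := hpt 854 (by norm_num); rwa [b3_pt] at this)
  subst h4
  rfl

/-- the Tits group `K` is simple. -/
theorem simpleK : IsSimpleGroup ↥K := by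
  refine PrimSimple.simple_of_prim_sylow (H := ↥K) (vecOf b1c) hfaithK hprimK 13 ?_ ?_
    ⟨tlU 3 * tlU 4, xxK⟩ ?_ ?_
  · rw [orbit_ncardK]
    norm_num
  · rw [cardK]
    norm_num
  · apply orderOf_eq_prime
    · apply Subtype.ext
      rw [Subgroup.coe_pow, Subgroup.coe_one]
      exact xx_pow
    · exact xxK_ne_one
  · apply normalClosure_top
    intro NK _ hconj hx
    have h0 : tlU 3 ∈ NK := by
      refine lemmaB NK K hconj 3 [3, 4] lbG1 lbGi1 lbQ1 lbQi1 5 ?_ ?_ ?_ lb1_g lb1_q lb1_main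
      · rw [xx_eq]; exact hx
      · exact wp_mem_of K (fun l => 3 ≤ l ∧ l < 6) (fun l hl => K_mid l hl.1 hl.2) _
          (by decide +kernel)
      · exact wp_mem_of K (fun l => 3 ≤ l ∧ l < 6) (fun l hl => K_mid l hl.1 hl.2) _
          (by decide +kernel)
    have h1 : tlU 4 ∈ NK := by
      have := NK.mul_mem (NK.inv_mem h0) hx
      rwa [inv_mul_cancel_left] at this
    unfold K
    rw [Subgroup.closure_le]
    rintro g (rfl | rfl)
    · exact h0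
    · exact h1

end Cfsg.Agent.Lib.Helper61.RuSimp
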