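import Mathlib
import Cfsg.Agent.Lib.Helper22.S56Stmt
import Cfsg.Agent.Lib.Helper63.PFrattini

/-!
# S1356 / FRAT (helper61, second seat, piece of helper22's call)

The Frattini subgroup of a normal `q`-subgroup `O`, as a normal subgroup of the ambient group:
it contains the `q`-th powers and the commutators of `O`, and it is non-generating in `O`.
-/

set_option autoImplicit false

namespace Cfsg.Agent.Lib.Helper61.S56FRAT

universe u

open Cfsg.Agent.Lib.Helper22.S56Stmt

/-- the image of the Frattini subgroup of a normal subgroup is normal (same proof as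
`Helper64.ZJE.frattini_map_normal`, restated here to keep the import closure light). -/
theorem frat_map_normal {G : Type*} [Group G] (Q : Subgroup G) [hQ : Q.Normal] :
    ((frattini ↥Q).map Q.subtype).Normal := by
  refine ⟨fun n hn g => ?_⟩
  obtain ⟨u, hu, rfl⟩ := hn
  refine ⟨(MulAut.conjNormal g : MulAut ↥Q) u, ?_, ?_⟩
  · have hfix := (frattini_characteristic (G := ↥Q)).fixed (MulAut.conjNormal g)
    have h1 : u ∈ (frattini ↥Q).comap (MulAut.conjNormal g : MulAut ↥Q).toMonoidHom := by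
      rw [hfix]; exact hu
    exact h1
  · simp [MulAut.conjNormal_apply]

theorem main : Frat.{u} := by
  intro X _ _ O _ q _ hO
  have hNn : ((frattini ↥O).map O.subtype).Normal := frat_map_normal O
  refine ⟨(frattini ↥O).map O.subtype, hNn, ?_, ?_, ?_, ?_⟩
  · rintro _ ⟨u, -, rfl⟩
    exact u.2
  · intro a ha
    exact ⟨(⟨a, ha⟩ : O) ^ q,
      Cfsg.Agent.Lib.Helper63.PFrattini.pow_mem_frattini hO ⟨a, ha⟩, rfl⟩
  · intro a ha b hb
    exact ⟨(⟨a, ha⟩ : O) * ⟨b, hb⟩ * (⟨a, ha⟩ : O)⁻¹ * (⟨b, hb⟩ : O)⁻¹,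
      Cfsg.Agent.Lib.Helper63.PFrattini.comm_mem_frattini hO ⟨a, ha⟩ ⟨b, hb⟩, rfl⟩
  · intro S hSO hle
    have htop : S.subgroupOf O ⊔ frattini ↥O = ⊤ := by
      rw [eq_top_iff]
      rintro ⟨o, ho⟩ -
      have ho' : o ∈ ((S ⊔ (frattini ↥O).map O.subtype : Subgroup X) : Set X) := hle ho
      rw [Subgroup.mul_normal] at ho'
      obtain ⟨s, hs, n, hn, hsn⟩ := Set.mem_mul.1 ho'
      obtain ⟨v, hv, rfl⟩ := hn
      have he : (⟨o, ho⟩ : O) = ⟨s, hSO hs⟩ * v := Subtype.ext hsn.symm
      rw [he]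
      exact Subgroup.mul_mem_sup (Subgroup.mem_subgroupOf.2 hs) hv
    have h := frattini_nongenerating htop
    intro o ho
    have hmem : (⟨o, ho⟩ : O) ∈ S.subgroupOf O := by
      rw [h]
      exact Subgroup.mem_top _
    exact Subgroup.mem_subgroupOf.1 hmem

end Cfsg.Agent.Lib.Helper61.S56FRAT
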