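import Mathlib
import Cfsg.Agent.Lib.Helper55.S72Stmt

/-!
# S1372 / VEX (helper61)

In a nilpotent subgroup `S`, an element `x` of prime order `q` is centralized by a nontrivial
elementary abelian `q`-subgroup `V` of `S` that is invariant under `N_G(S)`.
-/

set_option autoImplicit false

universe u

namespace Cfsg.Agent.Lib.Helper61.S72VEX

open Cfsg.Agent.Lib.Helper55.S72Stmt

/-- the subgroup `Ω₁` of the centre of the `q`-part of `S`, given by a carrier -/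
def omegaZ {G : Type u} [Group G] (S : Subgroup G) (q : ℕ) : Subgroup G where
  carrier := {z | z ∈ S ∧ z ^ q = 1 ∧ ∀ y ∈ S, (∃ n : ℕ, y ^ q ^ n = 1) → z * y = y * z}
  one_mem' := ⟨S.one_mem, one_pow _, fun y _ _ => by rw [one_mul, mul_one]⟩
  mul_mem' := by
    rintro a b ⟨haS, haq, hac⟩ ⟨hbS, hbq, hbc⟩
    refine ⟨S.mul_mem haS hbS, ?_, ?_⟩
    · have hcomm : Commute a b := hac b hbS ⟨1, by rw [pow_one]; exact hbq⟩
      rw [hcomm.mul_pow, haq, hbq, one_mul]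
    · intro y hy hyq
      rw [mul_assoc, hbc y hy hyq, ← mul_assoc, hac y hy hyq, mul_assoc]
  inv_mem' := by
    rintro a ⟨haS, haq, hac⟩
    refine ⟨S.inv_mem haS, by rw [inv_pow, haq, inv_one], ?_⟩
    intro y hy hyq
    have h := hac y hy hyq
    calc a⁻¹ * y = a⁻¹ * (y * a) * a⁻¹ := by group
      _ = a⁻¹ * (a * y) * a⁻¹ := by rw [h]
      _ = y * a⁻¹ := by group

theorem mem_omegaZ {G : Type u} [Group G] (S : Subgroup G) (q : ℕ) (z : G) :
    z ∈ omegaZ S q ↔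
      z ∈ S ∧ z ^ q = 1 ∧ ∀ y ∈ S, (∃ n : ℕ, y ^ q ^ n = 1) → z * y = y * z := Iff.rfl

theorem conj_mem_omegaZ {G : Type u} [Group G] (S : Subgroup G) (q : ℕ) (g : G)
    (hg : g ∈ Subgroup.normalizer (S : Set G)) (z : G) (hz : z ∈ omegaZ S q) :
    g * z * g⁻¹ ∈ omegaZ S q := by
  obtain ⟨hzS, hzq, hzc⟩ := hz
  have hgn := Subgroup.mem_normalizer_iff.mp hg
  have hgn' := Subgroup.mem_normalizer_iff''.mp hg
  refine ⟨(hgn z).mp hzS, ?_, ?_⟩
  · rw [conj_pow, hzq, mul_one, mul_inv_cancel]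
  · intro y hy ⟨n, hn⟩
    have hy' : g⁻¹ * y * g ∈ S := (hgn' y).mp hy
    have hyq' : (g⁻¹ * y * g) ^ q ^ n = 1 := by
      have : g⁻¹ * y * g = g⁻¹ * y * g⁻¹⁻¹ := by rw [inv_inv]
      rw [this, conj_pow, hn, mul_one, mul_inv_cancel]
    have h := hzc _ hy' ⟨n, hyq'⟩
    calc g * z * g⁻¹ * y = g * (z * (g⁻¹ * y * g)) * g⁻¹ := by group
      _ = g * ((g⁻¹ * y * g) * z) * g⁻¹ := by rw [h]
      _ = y * (g * z * g⁻¹) := by group

theorem exists_central {G : Type u} [Group G] [Finite G] (S : Subgroup G)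
    (hS : Group.IsNilpotent S) (x : G) (hxS : x ∈ S) (q : ℕ) (hq : q.Prime)
    (hx : orderOf x = q) :
    ∃ z : G, z ≠ 1 ∧ z ∈ omegaZ S q := by
  have : Fact q.Prime := ⟨hq⟩
  obtain ⟨Q⟩ : Nonempty (Sylow q ↥S) := inferInstance
  have hQn : (Q : Subgroup ↥S).Normal := inferInstance
  haveI : Unique (Sylow q ↥S) := Sylow.unique_of_normal Q hQn
  -- every element of `q`-power order of `S` lies in `Q`
  have hmem : ∀ y : ↥S, (∃ n : ℕ, y ^ q ^ n = 1) → y ∈ (Q : Subgroup ↥S) := by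
    rintro y ⟨n, hn⟩
    have hp : IsPGroup q ↥(Subgroup.zpowers y) := by
      rintro ⟨g, hg⟩
      obtain ⟨k, rfl⟩ := Subgroup.mem_zpowers_iff.mp hg
      refine ⟨n, ?_⟩
      apply Subtype.ext
      show (y ^ k) ^ q ^ n = 1
      rw [← zpow_natCast, ← zpow_mul, mul_comm, zpow_mul, zpow_natCast, hn, one_zpow]
    obtain ⟨Q', hQ'⟩ := hp.exists_le_sylow
    have hQQ : Q' = Q := Subsingleton.elim _ _
    rw [← hQQ]
    exact hQ' (Subgroup.mem_zpowers y)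
  -- `x ∈ Q`, so `Q` is nontrivial
  have hxQ : (⟨x, hxS⟩ : ↥S) ∈ (Q : Subgroup ↥S) := by
    apply hmem
    refine ⟨1, ?_⟩
    apply Subtype.ext
    show x ^ q ^ 1 = 1
    rw [pow_one, ← hx, pow_orderOf_eq_one]
  have hx1 : x ≠ 1 := by
    intro h
    rw [h, orderOf_one] at hx
    exact hq.one_lt.ne hx
  have : Nontrivial ↥(Q : Subgroup ↥S) := by
    refine ⟨⟨⟨⟨x, hxS⟩, hxQ⟩, 1, ?_⟩⟩
    intro h
    apply hx1
    have h2 := congrArg (fun t : ↥(Q : Subgroup ↥S) => ((t : ↥S) : G)) h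
    exact h2
  have hQp : IsPGroup q ↥(Q : Subgroup ↥S) := Q.isPGroup'
  have : Nontrivial ↥(Subgroup.center ↥(Q : Subgroup ↥S)) := hQp.center_nontrivial
  have hZp : IsPGroup q ↥(Subgroup.center ↥(Q : Subgroup ↥S)) := hQp.to_subgroup _
  have hdvd : q ∣ Nat.card ↥(Subgroup.center ↥(Q : Subgroup ↥S)) := by
    rcases hZp.card_eq_or_dvd with h | h
    · exact absurd h (Finite.one_lt_card).ne'
    · exact h
  obtain ⟨z0, hz0⟩ := exists_prime_orderOf_dvd_card' q hdvd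
  have hz0q : z0 ^ q = 1 := by
    have h := pow_orderOf_eq_one z0
    rwa [hz0] at h
  have hz01 : z0 ≠ 1 := by
    intro h
    rw [h, orderOf_one] at hz0
    exact hq.one_lt.ne hz0
  refine ⟨(((z0 : ↥(Q : Subgroup ↥S)) : ↥S) : G), ?_, ?_, ?_, ?_⟩
  · intro h
    apply hz01
    apply Subtype.ext
    apply Subtype.ext
    apply Subtype.ext
    exact h
  · exact (z0 : ↥(Q : Subgroup ↥S)).1.2
  · have h2 := congrArg (fun t : ↥(Subgroup.center ↥(Q : Subgroup ↥S)) =>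
      (((t : ↥(Q : Subgroup ↥S)) : ↥S) : G)) hz0q
    exact h2
  · intro y hy hyq
    have hyQ : (⟨y, hy⟩ : ↥S) ∈ (Q : Subgroup ↥S) := by
      apply hmem
      obtain ⟨n, hn⟩ := hyq
      exact ⟨n, Subtype.ext hn⟩
    have hc := Subgroup.mem_center_iff.mp z0.2 ⟨⟨y, hy⟩, hyQ⟩
    have h2 := congrArg (fun t : ↥(Q : Subgroup ↥S) => ((t : ↥S) : G)) hc
    exact h2.symm

theorem main : VEx.{u} := by
  intro G _ _ S hS x hxS q hq hx
  obtain ⟨z, hz1, hzV⟩ := exists_central S hS x hxS q hq hx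
  refine ⟨omegaZ S q, fun v hv => hv.1, ?_, ?_, fun v hv => hv.2.1, ?_, ?_⟩
  · intro h
    rw [h, Subgroup.mem_bot] at hzV
    exact hz1 hzV
  · refine ⟨⟨?_⟩⟩
    rintro ⟨a, ha⟩ ⟨b, hb⟩
    apply Subtype.ext
    exact ha.2.2 b hb.1 ⟨1, by rw [pow_one]; exact hb.2.1⟩
  · intro g hg
    rw [Subgroup.mem_normalizer_iff]
    intro z
    constructor
    · exact conj_mem_omegaZ S q g hg z
    · intro h
      have hg' : g⁻¹ ∈ Subgroup.normalizer (S : Set G) := Subgroup.inv_mem _ hg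
      have h2 := conj_mem_omegaZ S q g⁻¹ hg' _ h
      have h3 : g⁻¹ * (g * z * g⁻¹) * g⁻¹⁻¹ = z := by group
      rwa [h3] at h2
  · intro v hv
    rw [Subgroup.mem_centralizer_iff]
    intro h hh
    rw [Set.mem_singleton_iff] at hh
    subst hh
    exact (hv.2.2 h hxS ⟨1, by rw [pow_one, ← hx, pow_orderOf_eq_one]⟩).symm

end Cfsg.Agent.Lib.Helper61.S72VEX
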