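import Mathlib
import Cfsg.Agent.Lib.Helper79.SNStmt
import Cfsg.Agent.Lib.CT.Orth
import Cfsg.Agent.Lib.CT.Kernel

/-!
# S4931 piece SEP: the irreducible characters of `H/D` separate `D` from its complement.
-/

set_option autoImplicit false

namespace Cfsg.Agent.Lib.Helper61.SNSEP

open Cfsg

universe u

theorem main : Cfsg.Agent.Lib.Helper79.SNStmt.Sep.{u} := by
  intro H _ _ D hD x hx
  have := hD
  have hx1 : ((x : H) : H ⧸ D) ≠ 1 := by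
    intro h
    exact hx ((QuotientGroup.eq_one_iff x).mp h)
  have hex : ∃ ψ : IrrCharacter (H ⧸ D),
      (ψ : H ⧸ D → ℂ) ((x : H) : H ⧸ D) ≠ (ψ : H ⧸ D → ℂ) 1 := by
    by_contra hcon
    have hcon' : ∀ ψ : IrrCharacter (H ⧸ D),
        (ψ : H ⧸ D → ℂ) ((x : H) : H ⧸ D) = (ψ : H ⧸ D → ℂ) 1 :=
      fun ψ => by_contra (fun h => hcon ⟨ψ, h⟩)
    have hc := Cfsg.Agent.Lib.CT.Orth.isConj_of_irr_eq ((x : H) : H ⧸ D) 1 hcon'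
    exact hx1 (isConj_one_left.mp hc)
  obtain ⟨ψ, hψ⟩ := hex
  refine ⟨⟨fun h : H => (ψ : H ⧸ D → ℂ) (h : H ⧸ D),
    Cfsg.Agent.Lib.CT.Kernel.isIrrCharacter_inflation D ψ.2⟩, ?_, ?_⟩
  · intro d hd
    show (ψ : H ⧸ D → ℂ) ((d : H) : H ⧸ D) = (ψ : H ⧸ D → ℂ) ((1 : H) : H ⧸ D)
    rw [(QuotientGroup.eq_one_iff d).mpr hd, QuotientGroup.mk_one]
  · show (ψ : H ⧸ D → ℂ) ((x : H) : H ⧸ D) ≠ (ψ : H ⧸ D → ℂ) ((1 : H) : H ⧸ D)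
    rw [QuotientGroup.mk_one]
    exact hψ

end Cfsg.Agent.Lib.Helper61.SNSEP
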